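import Mathlib
import Cfsg.Prelude.Def_OddOrderLocal
import Cfsg.Agent.Lib.Hall
import Cfsg.Agent.Alt.Basic
import Cfsg.Agent.Perm.Basic

/-!
Hall subgroups of symmetric and alternating groups: set stabilisers, the projection onto a side, and
elementary lemmas.
-/

set_option autoImplicit false
set_option linter.style.haveILetI false

namespace Cfsg.Agent.PermHall

open Equiv Equiv.Perm

variable {n : ℕ}

/-- `σ` preserves the partition into `B` and its complement. -/
def Sides (B : Finset (Fin n)) (σ : Perm (Fin n)) : Prop :=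
  (∀ x, σ x ∈ B ↔ x ∈ B) ∨ ∀ x, σ x ∈ B ↔ x ∉ B

/-- The stabiliser of a set. -/
def setStab (B : Finset (Fin n)) : Subgroup (Perm (Fin n)) where
  carrier := {σ | ∀ x, σ x ∈ B ↔ x ∈ B}
  one_mem' := fun _ => Iff.rfl
  mul_mem' := fun {a b} ha hb x => (ha (b x)).trans (hb x)
  inv_mem' := fun {a} ha x => by
    have := ha (a⁻¹ x)
    simp only [Perm.coe_inv, Equiv.apply_symm_apply] at this
    exact this.symm

/-- The stabiliser of a partition into two parts. -/
def partStab (B : Finset (Fin n)) : Subgroup (Perm (Fin n)) where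
  carrier := {σ | Sides B σ}
  one_mem' := Or.inl fun _ => Iff.rfl
  mul_mem' := fun {a b} ha hb => by
    rcases ha with ha | ha <;> rcases hb with hb | hb
    · exact Or.inl fun x => (ha (b x)).trans (hb x)
    · exact Or.inr fun x => (ha (b x)).trans (hb x)
    · exact Or.inr fun x => (ha (b x)).trans (not_congr (hb x))
    · exact Or.inl fun x => ((ha (b x)).trans (not_congr (hb x))).trans not_not
  inv_mem' := fun {a} ha => by
    rcases ha with ha | ha
    · refine Or.inl fun x => ?_
      have := ha (a⁻¹ x)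
      simp only [Perm.coe_inv, Equiv.apply_symm_apply] at this
      exact this.symm
    · refine Or.inr fun x => ?_
      have := ha (a⁻¹ x)
      simp only [Perm.coe_inv, Equiv.apply_symm_apply] at this
      exact (not_congr this.symm |>.trans Iff.rfl) |> fun h => ⟨fun h1 h2 => (this.1 h2) h1,
        fun h1 => by by_contra h2; exact h1 (this.2 h2)⟩

theorem mem_setStab {B : Finset (Fin n)} {σ : Perm (Fin n)} :
    σ ∈ setStab B ↔ ∀ x, σ x ∈ B ↔ x ∈ B := Iff.rfl

theorem mem_partStab {B : Finset (Fin n)} {σ : Perm (Fin n)} : σ ∈ partStab B ↔ Sides B σ := Iff.rfl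

theorem setStab_compl (B : Finset (Fin n)) : setStab Bᶜ = setStab B := by
  ext σ
  simp only [mem_setStab, Finset.mem_compl, not_iff_not]

theorem mem_setStab_singleton {z : Fin n} {σ : Perm (Fin n)} : σ ∈ setStab {z} ↔ σ z = z := by
  constructor
  · intro h
    simpa using (h z).2 (Finset.mem_singleton_self z)
  · intro h x
    simp only [Finset.mem_singleton]
    exact ⟨fun h' => σ.injective (h'.trans h.symm), fun h' => by rw [h', h]⟩

theorem inter_mem {B : Finset (Fin n)} {σ : Perm (Fin n)} (h : ∀ x ∈ B, σ x ∈ B) : σ ∈ setStab B := by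
  intro x
  refine ⟨fun hx => ?_, h x⟩
  have himg : B.map σ.toEmbedding = B :=
    Finset.eq_of_subset_of_card_le (fun y hy => by
      obtain ⟨w, hw, rfl⟩ := Finset.mem_map.1 hy
      exact h w hw) (by rw [Finset.card_map])
  rw [← himg] at hx
  obtain ⟨w, hw, he⟩ := Finset.mem_map.1 hx
  rwa [← σ.injective he]

/-! ### Orders and indices -/

theorem card_setStab (B : Finset (Fin n)) :
    Nat.card (setStab B) = B.card.factorial * (n - B.card).factorial := by
  classical
  have e : setStab B ≃ Perm {x // x ∈ B} × Perm {x // x ∉ B} :=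
    { toFun := fun σ => (σ.1.subtypePerm σ.2, σ.1.subtypePerm fun x => not_congr (σ.2 x))
      invFun := fun p => ⟨Equiv.Perm.subtypeCongr p.1 p.2, fun x => by
        by_cases hx : x ∈ B
        · rw [Equiv.Perm.subtypeCongr.left_apply _ _ hx]
          exact iff_of_true (p.1 ⟨x, hx⟩).2 hx
        · rw [Equiv.Perm.subtypeCongr.right_apply _ _ hx]
          exact iff_of_false (p.2 ⟨x, hx⟩).2 hx⟩
      left_inv := fun σ => Subtype.ext (Equiv.ext fun x => by
        by_cases hx : x ∈ B
        · exact Equiv.Perm.subtypeCongr.left_apply _ _ hx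
        · exact Equiv.Perm.subtypeCongr.right_apply _ _ hx)
      right_inv := fun p => Prod.ext
        (Equiv.ext fun x => Subtype.ext (Equiv.Perm.subtypeCongr.left_apply _ _ x.2))
        (Equiv.ext fun x => Subtype.ext (Equiv.Perm.subtypeCongr.right_apply _ _ x.2)) }
  rw [Nat.card_congr e, Nat.card_prod, Nat.card_perm, Nat.card_perm]
  congr 2
  · simp
  · rw [Nat.card_eq_fintype_card, Fintype.card_subtype_compl, Fintype.card_fin,
      Fintype.card_coe]

theorem index_setStab (B : Finset (Fin n)) : (setStab B).index = n.choose B.card := by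
  have h := (setStab B).card_mul_index
  have hle : B.card ≤ n := (Finset.card_le_univ B).trans_eq (Fintype.card_fin n)
  rw [card_setStab, Nat.card_perm, Nat.card_fin,
    ← Nat.choose_mul_factorial_mul_factorial hle] at h
  refine Nat.eq_of_mul_eq_mul_left (Nat.mul_pos (Nat.factorial_pos B.card) (Nat.factorial_pos (n - B.card))) ?_
  rw [h]
  ring

theorem card_partStab {B : Finset (Fin n)} {m : ℕ} (hB : B.card = m) (hn : n = 2 * m) (hm : 1 ≤ m) :
    Nat.card (partStab B) = 2 * (m.factorial * m.factorial) := by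
  classical
  have hle : setStab B ≤ partStab B := fun σ hσ => Or.inl hσ
  obtain ⟨e⟩ : Nonempty ({x // x ∈ B} ≃ {x // x ∉ B}) := by
    refine ⟨Fintype.equivOfCardEq ?_⟩
    rw [Fintype.card_subtype_compl, Fintype.card_fin, Fintype.card_coe]
    omega
  let t : Perm (Fin n) :=
    { toFun := fun x => if h : x ∈ B then (e ⟨x, h⟩ : Fin n) else (e.symm ⟨x, h⟩ : Fin n)
      invFun := fun x => if h : x ∈ B then (e ⟨x, h⟩ : Fin n) else (e.symm ⟨x, h⟩ : Fin n)
      left_inv := fun x => by
        by_cases h : x ∈ B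
        · simp [h, (e ⟨x, h⟩).2]
        · simp [h, (e.symm ⟨x, h⟩).2]
      right_inv := fun x => by
        by_cases h : x ∈ B
        · simp [h, (e ⟨x, h⟩).2]
        · simp [h, (e.symm ⟨x, h⟩).2] }
  have ht : ∀ x, t x ∈ B ↔ x ∉ B := fun x => by
    by_cases h : x ∈ B
    · simp [t, h, (e ⟨x, h⟩).2]
    · simp [t, h, (e.symm ⟨x, h⟩).2]
  have hidx : ((setStab B).subgroupOf (partStab B)).index = 2 := by
    rw [Subgroup.index_eq_two_iff]
    refine ⟨⟨t, Or.inr ht⟩, fun b => ?_⟩
    obtain ⟨x0, hx0⟩ := Finset.card_pos.1 (show 0 < B.card by omega)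
    rcases b.2 with hb | hb
    · refine Or.inr ⟨hb, fun h => ?_⟩
      have h1 := h x0
      simp only [Subgroup.coe_subtype, Subgroup.coe_mul, Perm.mul_apply, hb, ht] at h1
      exact (h1.2 hx0) hx0
    · refine Or.inl ⟨fun x => ?_, fun h => ?_⟩
      · simp only [Subgroup.coe_subtype, Subgroup.coe_mul, Perm.mul_apply, hb, ht, not_not]
      · have h1 := h x0
        simp only [Subgroup.coe_subtype, hb] at h1
        exact (h1.2 hx0) hx0
  have h := ((setStab B).subgroupOf (partStab B)).card_mul_index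
  rw [hidx, Nat.card_congr (Subgroup.subgroupOfEquivOfLe hle).toEquiv, card_setStab, hB,
    show n - m = m by omega] at h
  omega

theorem setStab_of_card_eq {B : Finset (Fin n)} {C : Finset (Fin n)} (h : B.card = C.card) :
    ∃ g : Perm (Fin n), ∀ x, g x ∈ C ↔ x ∈ B := by
  classical
  have h1 : Fintype.card {x // x ∈ B} = Fintype.card {x // x ∈ C} := by simp [h]
  have h2 : Fintype.card {x // x ∉ B} = Fintype.card {x // x ∉ C} := by
    rw [Fintype.card_subtype_compl, Fintype.card_subtype_compl, Fintype.card_coe, Fintype.card_coe, h]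
  refine ⟨Equiv.subtypeCongr (Fintype.equivOfCardEq h1) (Fintype.equivOfCardEq h2), fun x => ?_⟩
  by_cases hx : x ∈ B
  · simp only [hx, iff_true]
    simp only [Equiv.subtypeCongr, Equiv.trans_apply, Equiv.sumCompl_symm_apply_of_pos hx,
      Equiv.sumCongr_apply, Sum.map_inl, Equiv.sumCompl_apply_inl]
    exact (Fintype.equivOfCardEq h1 ⟨x, hx⟩).2
  · simp only [hx, iff_false]
    simp only [Equiv.subtypeCongr, Equiv.trans_apply, Equiv.sumCompl_symm_apply_of_neg hx,
      Equiv.sumCongr_apply, Sum.map_inr, Equiv.sumCompl_apply_inr]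
    exact (Fintype.equivOfCardEq h2 ⟨x, hx⟩).2

/-- A set stabiliser with two points on one side contains an odd permutation. -/
theorem exists_odd_setStab {B : Finset (Fin n)} (h : 2 ≤ B.card ∨ 2 ≤ n - B.card) :
    ∃ τ ∈ setStab B, Perm.sign τ = -1 := by
  classical
  have key : ∀ C : Finset (Fin n), 2 ≤ C.card → ∃ τ ∈ setStab C, Perm.sign τ = -1 := by
    intro C hC
    obtain ⟨u, hu, v, hv, huv⟩ := Finset.one_lt_card.1 hC
    refine ⟨swap u v, inter_mem fun x hx => ?_, Perm.sign_swap huv⟩
    rw [Equiv.swap_apply_def]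
    split_ifs <;> assumption
  rcases h with h | h
  · exact key B h
  · rw [← setStab_compl]
    exact key Bᶜ (by rw [Finset.card_compl, Fintype.card_fin]; exact h)

/-! ### Groups above the alternating group -/

theorem normal_of_alt_le {G : Subgroup (Perm (Fin n))} (h : alternatingGroup (Fin n) ≤ G) :
    G.Normal := by
  rcases Alt.eq_alt_or_top_of_alt_le h with rfl | rfl <;> infer_instance

theorem relIndex_eq_index {G T : Subgroup (Perm (Fin n))} (hG : alternatingGroup (Fin n) ≤ G)
    {τ : Perm (Fin n)} (hτ : τ ∈ T) (hτs : Perm.sign τ = -1) : T.relIndex G = T.index := by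
  haveI := normal_of_alt_le hG
  have htop : T ⊔ G = ⊤ := by
    rcases Alt.eq_alt_or_top_of_alt_le (hG.trans (le_sup_right : G ≤ T ⊔ G)) with h | h
    · have h1 : τ ∈ alternatingGroup (Fin n) := h ▸ Subgroup.mem_sup_left hτ
      rw [Perm.mem_alternatingGroup, hτs] at h1
      exact absurd h1 (by decide)
    · exact h
  have h1 : G.relIndex T = G.index := by
    rw [← Subgroup.relIndex_sup_right, htop, Subgroup.relIndex_top_right]
  have h2 := Subgroup.relIndex_mul_index (inf_le_left : T ⊓ G ≤ T)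
  have h3 := Subgroup.relIndex_mul_index (inf_le_right : T ⊓ G ≤ G)
  rw [Subgroup.inf_relIndex_left, h1] at h2
  rw [Subgroup.inf_relIndex_right] at h3
  exact Nat.eq_of_mul_eq_mul_right (Nat.pos_of_ne_zero Subgroup.index_ne_zero_of_finite)
    (h3.trans (h2.symm.trans (mul_comm _ _)))

/-- A Hall subgroup of the symmetric group gives one of every group above the alternating group. -/
theorem hall_inter {π : Set ℕ} {G T : Subgroup (Perm (Fin n))} (hG : alternatingGroup (Fin n) ≤ G)
    (hT : Cfsg.IsPiHall π T) : Cfsg.IsPiHallOf π (T ⊓ G) G := by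
  haveI := normal_of_alt_le hG
  exact Agent.Hall.isPiHallOf_inf_normal hT G

theorem hallOf_eq {G' : Type*} [Group G'] [Finite G'] {π : Set ℕ} {G H K : Subgroup G'}
    (hH : Cfsg.IsPiHallOf π H G) (hK : Cfsg.IsPiHallOf π K G) (hle : H ≤ K) : H = K := by
  obtain ⟨hHG, hH'⟩ := Agent.Hall.isPiHallOf_iff.1 hH
  obtain ⟨hKG, hK'⟩ := Agent.Hall.isPiHallOf_iff.1 hK
  have h := Agent.Hall.eq_of_le_of_isPiHall hH' hK'.1 (fun x hx => hle hx)
  refine le_antisymm hle fun x hx => ?_
  have h' : (⟨x, hKG hx⟩ : G) ∈ H.subgroupOf G := h ▸ (hx : (⟨x, hKG hx⟩ : G) ∈ K.subgroupOf G)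
  exact h'

/-- The alternating group of degree at least five has no proper subgroup of small index. -/
theorem alt_le_of_relIndex_lt (h5 : 5 ≤ n) {G H : Subgroup (Perm (Fin n))}
    (hG : alternatingGroup (Fin n) ≤ G) (hlt : H.relIndex G < n) : alternatingGroup (Fin n) ≤ H := by
  classical
  set A := alternatingGroup (Fin n)
  have h0 : H.relIndex G ≠ 0 := Subgroup.FiniteIndex.index_ne_zero
  have hk : H.relIndex A < n := (Subgroup.relIndex_le_of_le_right hG h0).trans_lt hlt
  haveI : IsSimpleGroup A := alternatingGroup.isSimpleGroup (by rw [Nat.card_fin]; exact h5)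
  haveI : Nontrivial (Fin n) := Fin.nontrivial_iff_two_le.2 (by omega)
  set K := H.subgroupOf A with hK
  rcases (inferInstance : K.normalCore.Normal).eq_bot_or_eq_top with hc | hc
  · have hinj : Function.Injective (MulAction.toPermHom A (A ⧸ K)) := by
      rw [← MonoidHom.ker_eq_bot_iff, ← Subgroup.normalCore_eq_ker, hc]
    have h1 := Nat.card_le_card_of_injective _ hinj
    have hidx : Nat.card (A ⧸ K) = H.relIndex A := rfl
    rw [Nat.card_perm, hidx] at h1
    have h2 : 2 * Nat.card A = n.factorial := by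
      rw [two_mul_nat_card_alternatingGroup, Nat.card_perm, Nat.card_fin]
    have h3 := Nat.factorial_le (show H.relIndex A ≤ n - 1 by omega)
    have h4 : n.factorial = n * (n - 1).factorial := (Nat.mul_factorial_pred (by omega)).symm
    have h5' : 5 * (n - 1).factorial ≤ n.factorial := h4 ▸ Nat.mul_le_mul_right _ h5
    have := Nat.factorial_pos (n - 1)
    omega
  · have htop : K = ⊤ := top_le_iff.1 (hc ▸ Subgroup.normalCore_le K)
    exact Subgroup.subgroupOf_eq_top.1 htop

/-! ### Projection onto one side -/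

variable {b : ℕ}

/-- The action of the stabiliser of `B` on `B`. -/
def proj (B : Finset (Fin n)) (e : {x // x ∈ B} ≃ Fin b) : setStab B →* Perm (Fin b) :=
  MonoidHom.mk' (fun σ => e.permCongr (σ.1.subtypePerm σ.2)) fun σ τ => by
    ext i
    simp only [Equiv.permCongr_apply, Perm.mul_apply, Equiv.symm_apply_apply]
    rfl

theorem proj_apply {B : Finset (Fin n)} (e : {x // x ∈ B} ≃ Fin b) (σ : setStab B) {x : Fin n}
    (hx : x ∈ B) : proj B e σ (e ⟨x, hx⟩) = e ⟨σ.1 x, (σ.2 x).2 hx⟩ := by
  simp only [proj, MonoidHom.mk'_apply, Equiv.permCongr_apply, Equiv.symm_apply_apply]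
  rfl

/-- The image of a subgroup under the projection. -/
def img (B : Finset (Fin n)) (e : {x // x ∈ B} ≃ Fin b) (K : Subgroup (Perm (Fin n))) :
    Subgroup (Perm (Fin b)) :=
  (K.subgroupOf (setStab B)).map (proj B e)

theorem mem_img {B : Finset (Fin n)} (e : {x // x ∈ B} ≃ Fin b) {K : Subgroup (Perm (Fin n))}
    {σ : Perm (Fin n)} (hσ : σ ∈ setStab B) (hK : σ ∈ K) : proj B e ⟨σ, hσ⟩ ∈ img B e K :=
  ⟨⟨σ, hσ⟩, hK, rfl⟩

theorem alt_le_img (B : Finset (Fin n)) (e : {x // x ∈ B} ≃ Fin b) {G : Subgroup (Perm (Fin n))}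
    (hG : alternatingGroup (Fin n) ≤ G) : alternatingGroup (Fin b) ≤ img B e G := by
  classical
  intro τ hτ
  set σ : Perm (Fin n) := τ.extendDomain e.symm with hσ
  have hmem : σ ∈ setStab B := inter_mem fun x hx => by
    rw [hσ, Perm.extendDomain_apply_subtype _ _ hx]
    exact (e.symm _).2
  refine ⟨⟨σ, hmem⟩, hG ?_, ?_⟩
  · rw [Perm.mem_alternatingGroup]
    exact (Perm.sign_extendDomain τ e.symm).trans hτ
  · ext i
    have h := proj_apply e ⟨σ, hmem⟩ (e.symm i).2
    rw [Subtype.coe_eta, Equiv.apply_symm_apply] at h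
    rw [h]
    have h2 : σ (e.symm i : Fin n) = (e.symm (τ i) : Fin n) := Perm.extendDomain_apply_image τ e.symm i
    simp only [h2, Subtype.coe_eta, Equiv.apply_symm_apply]

theorem relIndex_map_dvd {G G' : Type*} [Group G] [Group G'] (f : G →* G') {H K : Subgroup G}
    (hle : H ≤ K) : (H.map f).relIndex (K.map f) ∣ H.relIndex K := by
  have h : (H.subgroupOf K).map (f.subgroupMap K) = (H.map f).subgroupOf (K.map f) := by
    ext ⟨y, hy⟩
    constructor
    · rintro ⟨x, hx, h⟩
      exact ⟨x.1, hx, congrArg Subtype.val h⟩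
    · rintro ⟨x, hx, h⟩
      exact ⟨⟨x, hle hx⟩, hx, Subtype.ext h⟩
  show ((H.map f).subgroupOf (K.map f)).index ∣ (H.subgroupOf K).index
  rw [← h]
  exact Subgroup.index_map_dvd (H := H.subgroupOf K) (f.subgroupMap_surjective K)

/-- The image of a Hall subgroup is Hall in the image. -/
theorem hall_img {π : Set ℕ} (B : Finset (Fin n)) (e : {x // x ∈ B} ≃ Fin b)
    {G H : Subgroup (Perm (Fin n))} (hH : Cfsg.IsPiHallOf π (H ⊓ setStab B) (G ⊓ setStab B)) :
    Cfsg.IsPiHallOf π (img B e H) (img B e G) := by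
  obtain ⟨hle, h1, h2⟩ := hH
  have hle' : H.subgroupOf (setStab B) ≤ G.subgroupOf (setStab B) := fun x hx => (hle ⟨hx, x.2⟩).1
  refine ⟨Subgroup.map_mono hle', fun p hp hd => h1 p hp ?_, fun p hp hpπ hd => h2 p hp hpπ ?_⟩
  · refine (hd.trans (Subgroup.card_map_dvd (H := H.subgroupOf (setStab B)) _)).trans ?_
    rw [← Subgroup.inf_subgroupOf_right, Nat.card_congr (Subgroup.subgroupOfEquivOfLe inf_le_right).toEquiv]
  · refine (hd.trans (relIndex_map_dvd (proj B e) hle')).trans ?_
    rw [← Subgroup.relIndex_map_map_of_injective _ _ (setStab B).subtype_injective,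
      Subgroup.subgroupOf_map_subtype, Subgroup.subgroupOf_map_subtype]

theorem card_inf_fix {K : Subgroup (Perm (Fin n))} (hK : ∀ x y, ∃ h ∈ K, h x = y) (z : Fin n) :
    Nat.card K = n * Nat.card (K ⊓ setStab {z} : Subgroup (Perm (Fin n))) := by
  haveI : MulAction.IsPretransitive K (Fin n) :=
    ⟨fun x y => by obtain ⟨h, hh, he⟩ := hK x y; exact ⟨⟨h, hh⟩, he⟩⟩
  rw [PermLib.card_eq_mul_card_stabilizer (G := K) z, Nat.card_fin]
  congr 1
  exact Nat.card_congr
    { toFun := fun g => ⟨g.1.1, g.1.2, mem_setStab_singleton.2 g.2⟩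
      invFun := fun g => ⟨⟨g.1, g.2.1⟩, mem_setStab_singleton.1 g.2.2⟩
      left_inv := fun _ => rfl
      right_inv := fun _ => rfl }

/-- Deleting a point from a transitive Hall subgroup. -/
theorem hall_fix {π : Set ℕ} {G H : Subgroup (Perm (Fin n))} (hH : Cfsg.IsPiHallOf π H G)
    (hK : ∀ x y, ∃ h ∈ H, h x = y) (z : Fin n) :
    Cfsg.IsPiHallOf π (H ⊓ setStab {z}) (G ⊓ setStab {z}) := by
  obtain ⟨hle, h1, h2⟩ := hH
  refine ⟨inf_le_inf_right _ hle, fun p hp hd => h1 p hp (hd.trans (Subgroup.card_dvd_of_le inf_le_left)),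
    fun p hp hpπ hd => h2 p hp hpπ ?_⟩
  have cH := card_inf_fix hK z
  have cG := card_inf_fix (K := G) (fun x y => by obtain ⟨h, hh, he⟩ := hK x y; exact ⟨h, hle hh, he⟩) z
  have e1 := Subgroup.card_mul_index (H.subgroupOf G)
  have e2 := Subgroup.card_mul_index ((H ⊓ setStab {z}).subgroupOf (G ⊓ setStab {z}))
  rw [Nat.card_congr (Subgroup.subgroupOfEquivOfLe hle).toEquiv, cH, cG, mul_assoc] at e1
  rw [Nat.card_congr (Subgroup.subgroupOfEquivOfLe (inf_le_inf_right _ hle)).toEquiv] at e2
  have e3 := Nat.eq_of_mul_eq_mul_left (Fin.pos z) e1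
  have e4 := Nat.eq_of_mul_eq_mul_left Nat.card_pos (e2.trans e3.symm)
  show p ∣ (H.subgroupOf G).index
  rw [← e4]
  exact hd

end Cfsg.Agent.PermHall
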