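import Cfsg.Agent.PermHall.Degree

/-!
The classification of Hall subgroups of symmetric and alternating groups.
-/

set_option autoImplicit false
set_option linter.style.haveILetI false

namespace Cfsg.Agent.PermHall

open Equiv Equiv.Perm

variable {n : ℕ} {π : Set ℕ}

/-- The induction hypothesis. -/
def ShapeBelow (π : Set ℕ) (n : ℕ) : Prop :=
  ∀ m < n, ∀ G H : Subgroup (Perm (Fin m)), alternatingGroup (Fin m) ≤ G →
    Cfsg.IsPiHallOf π H G → Nontriv π m → Shape π m H

theorem not_dvd_choose_self {b a : ℕ} (hb : b.Prime) (hb3 : 3 ≤ b) (hab : a ≤ b) : ¬ b ∣ (a + b).choose a := by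
  intro hd
  have hpos : (a + b).choose a ≠ 0 := (Nat.choose_pos (by omega)).ne'
  have h1 := hb.factorization_pos_of_dvd hpos hd
  rw [Nat.add_comm a b, Nat.factorization_choose' hb (b := Nat.log b (b + a) + 1) (by omega)] at h1
  obtain ⟨i, hi⟩ := Finset.card_pos.1 h1
  rw [Finset.mem_filter, Finset.mem_Ico] at hi
  have h2 := hb.two_le
  rcases Nat.lt_or_ge i 2 with hi2 | hi2
  · obtain rfl : i = 1 := by omega
    rw [pow_one, Nat.mod_self] at hi
    have := Nat.mod_lt a hb.pos
    omega
  · have h3 : b ^ 2 ≤ b ^ i := Nat.pow_le_pow_right hb.pos hi2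
    have := Nat.mod_le a (b ^ i)
    have := Nat.mod_le b (b ^ i)
    have h4 : a + b < b ^ 2 := by nlinarith
    omega

theorem choose_dvd_relIndex {G H : Subgroup (Perm (Fin n))} (hAG : alternatingGroup (Fin n) ≤ G)
    {B : Finset (Fin n)} (hB : 2 ≤ B.card ∨ 2 ≤ n - B.card) (hle : H ≤ setStab B) :
    n.choose B.card ∣ H.relIndex G := by
  obtain ⟨τ, hτ, hτs⟩ := exists_odd_setStab hB
  rw [← index_setStab, ← relIndex_eq_index hAG hτ hτs]
  exact Subgroup.relIndex_dvd_of_le_left G hle

theorem intransitive (IH : ShapeBelow π n) {G H : Subgroup (Perm (Fin n))}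
    (hAG : alternatingGroup (Fin n) ≤ G) (hH : Cfsg.IsPiHallOf π H G) (hN : Nontriv π n)
    {B : Finset (Fin n)} (hle : H ≤ setStab B) (ha1 : 1 ≤ B.card) (h2 : 2 * B.card ≤ n) :
    Shape π n H := by
  have h5 := five_le hN
  set a := B.card with ha
  set b := n - a with hb
  have hnab : n = a + b := by omega
  have hC : ∀ q, q.Prime → q ∈ π → ¬ q ∣ n.choose a := fun q hq hqπ hd =>
    hH.2.2 q hq hqπ (hd.trans (choose_dvd_relIndex hAG (Or.inr (show 2 ≤ n - B.card by omega)) hle))
  have hqb : ∀ q, q.Prime → q ∈ π → q ≤ n → q ≤ b := by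
    intro q hq hqπ hqn
    by_contra hlt
    have hd : q ∣ n.factorial := hq.dvd_factorial.2 hqn
    rw [← Nat.choose_mul_factorial_mul_factorial (show a ≤ n by omega)] at hd
    rcases hq.dvd_mul.1 hd with h | h
    · rcases hq.dvd_mul.1 h with h | h
      · exact hC q hq hqπ h
      · have := hq.dvd_factorial.1 h; omega
    · have := hq.dvd_factorial.1 h; omega
  obtain ⟨⟨r, s, hr, hs, hrs, hrπ, hsπ, hrn, hsn⟩, -⟩ := hN
  have hrb := hqb r hr hrπ hrn
  have hsb := hqb s hs hsπ hsn
  by_cases hex : ∃ t, t.Prime ∧ t ≤ b ∧ t ∉ π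
  · exfalso
    have hNb : Nontriv π b := ⟨⟨r, s, hr, hs, hrs, hrπ, hsπ, hrb, hsb⟩, hex⟩
    have hb5 := five_le hNb
    obtain ⟨e⟩ := exists_equiv Bᶜ (m := b) (by rw [Finset.card_compl, Fintype.card_fin])
    have hle' : H ≤ setStab Bᶜ := by rw [setStab_compl]; exact hle
    have hI : Cfsg.IsPiHallOf π (H ⊓ setStab Bᶜ) (G ⊓ setStab Bᶜ) := by
      rw [inf_eq_left.2 hle']
      exact ⟨le_inf hH.1 hle', hH.2.1, fun p hp hpπ hd =>
        hH.2.2 p hp hpπ (hd.trans ⟨(G ⊓ setStab Bᶜ).relIndex G,
          (Subgroup.relIndex_mul_relIndex H _ G (le_inf hH.1 hle') inf_le_left).symm⟩)⟩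
    have hC' : ∀ q, q.Prime → q ∈ π → ¬ q ∣ (a + b).choose a := hnab ▸ hC
    rcases IH b (by omega) _ _ (alt_le_img Bᶜ e hAG) (hall_img Bᶜ e hI) hNb with
      ⟨hbp, hP, -⟩ | ⟨hb7, hP, -⟩ | ⟨hb8, hP, -⟩
    · rcases Nat.lt_or_ge a 2 with ha2 | ha2
      · have h2π : 2 ∈ π := (hP 2 Nat.prime_two (by omega)).2 (by omega)
        refine hC' 2 Nat.prime_two h2π ?_
        obtain ⟨k, hk⟩ := hbp.odd_of_ne_two (by omega)
        rw [show a = 1 by omega, Nat.choose_one_right]
        exact ⟨k + 1, by omega⟩
      · obtain ⟨-, hb4⟩ := Arith.BinomialSmallPrime.eq_three_four ha2 (by omega : a ≤ b) (fun q hq hqle => by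
          rcases eq_or_lt_of_le hqle with h | h
          · rw [h]; exact not_dvd_choose_self hbp (by omega) (by omega)
          · exact hC' q hq ((hP q hq hqle).2 h))
        omega
    · have h2π : 2 ∈ π := (hP 2 Nat.prime_two (by omega)).2 (Or.inl rfl)
      have h3π : 3 ∈ π := (hP 3 Nat.prime_three (by omega)).2 (Or.inr rfl)
      have key : ∀ a < 8, 1 ≤ a → 2 ∣ (a + 7).choose a ∨ 3 ∣ (a + 7).choose a := by decide +kernel
      rw [hb7] at hC'
      rcases key a (by omega) ha1 with h | h
      · exact hC' 2 Nat.prime_two h2π h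
      · exact hC' 3 Nat.prime_three h3π h
    · have h2π : 2 ∈ π := (hP 2 Nat.prime_two (by omega)).2 (Or.inl rfl)
      have h3π : 3 ∈ π := (hP 3 Nat.prime_three (by omega)).2 (Or.inr rfl)
      have key : ∀ a < 9, 1 ≤ a → 2 ∣ (a + 8).choose a ∨ 3 ∣ (a + 8).choose a := by decide +kernel
      rw [hb8] at hC'
      rcases key a (by omega) ha1 with h | h
      · exact hC' 2 Nat.prime_two h2π h
      · exact hC' 3 Nat.prime_three h3π h
  · push Not at hex
    rcases Nat.lt_or_ge a 2 with ha2 | ha2
    · have ha' : a = 1 := by omega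
      obtain ⟨q, hq, hqn⟩ := Nat.exists_prime_and_dvd (show n ≠ 1 by omega)
      have hqπ : q ∉ π := fun h => hC q hq h (by rw [ha', Nat.choose_one_right]; exact hqn)
      have hqle := Nat.le_of_dvd (by omega) hqn
      have hqn' : q = n := by
        by_contra hne
        exact hqπ (hex q hq (by omega))
      subst hqn'
      refine Or.inl ⟨hq, fun t ht htn => ⟨fun h => ?_, fun h => hex t ht (by omega)⟩, ?_⟩
      · rcases eq_or_lt_of_le htn with rfl | h'
        · exact absurd h hqπ
        · exact h'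
      · obtain ⟨x, hx⟩ := Finset.card_eq_one.1 ha'
        exact ⟨x, hx ▸ hle⟩
    · obtain ⟨ha3, hb4⟩ := Arith.BinomialSmallPrime.eq_three_four ha2 (by omega : a ≤ b)
        (fun q hq hqle => hnab ▸ hC q hq (hex q hq hqle))
      refine Or.inr (Or.inl ⟨by omega, fun t ht htn => ⟨fun h => ?_, ?_⟩, B, ha3, hle⟩)
      · have := hqb t ht h htn
        have := ht.two_le
        have : t ≠ 4 := fun e => absurd (e ▸ ht) (by norm_num)
        omega
      · rintro (rfl | rfl)
        · exact hex 2 ht (by omega)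
        · exact hex 3 ht (by omega)

theorem transitive (IH : ShapeBelow π n) {G H : Subgroup (Perm (Fin n))}
    (hAG : alternatingGroup (Fin n) ≤ G) (hH : Cfsg.IsPiHallOf π H G) (hN : Nontriv π n)
    (htr : ∀ x y, ∃ h ∈ H, h x = y) : Shape π n H := by
  classical
  have h5 := five_le hN
  have hpn : NeZero n := ⟨by omega⟩
  have hdvd : ∀ q, q.Prime → q ∣ n → q ∈ π := fun q hq hqn => hH.2.1 q hq (by
    rw [card_inf_fix htr (0 : Fin n)]
    exact hqn.mul_right _)
  obtain ⟨⟨r, s, hr, hs, hrs, hrπ, hsπ, hrn, hsn⟩, t, ht, htn, htπ⟩ := hN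
  have htlt : t ≤ n - 1 := by
    rcases eq_or_lt_of_le htn with rfl | h
    · exact absurd (hdvd t ht dvd_rfl) htπ
    · omega
  have hpi : H.relIndex G ∣ n.factorial := by
    refine (Subgroup.relIndex_dvd_card H G).trans ?_
    have := G.card_subgroup_dvd_card
    rwa [Nat.card_perm, Nat.card_fin] at this
  by_cases htwo : ∃ r s, r.Prime ∧ s.Prime ∧ r ≠ s ∧ r ∈ π ∧ s ∈ π ∧ r ≤ n - 1 ∧ s ≤ n - 1
  · have hN' : Nontriv π (n - 1) := ⟨htwo, t, ht, htlt, htπ⟩
    have hpoint : ∀ (z : Fin n) (e : {x // x ∈ ({z}ᶜ : Finset (Fin n))} ≃ Fin (n - 1)),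
        Shape π (n - 1) (img _ e H) := fun z e =>
      IH (n - 1) (by omega) _ _ (alt_le_img _ e hAG)
        (hall_img _ e (setStab_compl_singleton z ▸ hall_fix hH htr z)) hN'
    obtain ⟨e0⟩ := exists_equiv ({(0 : Fin n)}ᶜ : Finset (Fin n)) (m := n - 1)
      (by rw [Finset.card_compl, Fintype.card_fin, Finset.card_singleton])
    rcases hpoint 0 e0 with ⟨hq, hP, -⟩ | ⟨h7, hP, -⟩ | ⟨h8, hP, -⟩
    · exfalso
      set q := n - 1 with hqdef
      have hqπ : q ∉ π := fun h => lt_irrefl q ((hP q hq le_rfl).1 h)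
      have hprimes : ∀ d : ℕ, d.Prime → d ∣ H.relIndex G → d = q := by
        intro d hd hdm
        have hdn : d ≤ n := hd.dvd_factorial.1 (hdm.trans hpi)
        have hdπ : d ∉ π := fun h => hH.2.2 d hd h hdm
        rcases eq_or_lt_of_le hdn with rfl | hlt
        · exact absurd (hdvd _ hd dvd_rfl) hdπ
        · by_contra hne
          exact hdπ ((hP d hd (by omega)).2 (by omega))
      have hm0 : H.relIndex G ≠ 0 := Subgroup.FiniteIndex.index_ne_zero
      have hm := Nat.eq_prime_pow_of_unique_prime_dvd hm0 (fun {d} hd hdd => hprimes d hd hdd)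
      have hmle : H.relIndex G ≤ q := by
        rw [hm]
        have hv : (q ^ (H.relIndex G).primeFactorsList.length) ∣ n.factorial := hm ▸ hpi
        rcases Nat.lt_or_ge (H.relIndex G).primeFactorsList.length 2 with hl | hl
        · exact (Nat.pow_le_pow_right hq.pos (Nat.le_of_lt_succ hl)).trans (pow_one q).le
        · exfalso
          have h2 : q * q ∣ n.factorial := (sq q ▸ (pow_dvd_pow q hl).trans hv)
          rw [show n = q + 1 by omega, Nat.factorial_succ, ← Nat.mul_factorial_pred hq.ne_zero,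
            mul_left_comm] at h2
          rcases hq.dvd_mul.1 (Nat.dvd_of_mul_dvd_mul_left hq.pos h2) with h | h
          · have := Nat.eq_one_of_dvd_one ((Nat.dvd_add_right dvd_rfl).1 h)
            omega
          · have := hq.dvd_factorial.1 h
            omega
      have hA := alt_le_of_relIndex_lt h5 hAG (show H.relIndex G < n by omega)
      haveI : Nontrivial (Fin n) := Fin.nontrivial_iff_two_le.2 (by omega)
      have h2 : 2 * Nat.card (alternatingGroup (Fin n)) = n.factorial := by
        rw [two_mul_nat_card_alternatingGroup, Nat.card_perm, Nat.card_fin]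
      have hqA : q ∣ Nat.card (alternatingGroup (Fin n)) :=
        ((Nat.coprime_primes hq Nat.prime_two).2 (by omega)).dvd_of_dvd_mul_left
          (h2 ▸ hq.dvd_factorial.2 (by omega))
      exact hqπ (hH.2.1 q hq (hqA.trans (Subgroup.card_dvd_of_le hA)))
    · have hn : n = 8 := by omega
      have hP7 : P23 π 7 := h7 ▸ hP
      obtain ⟨B, hB, hle⟩ := shape_eight hn hP7 hAG hH htr (fun z e => by
        obtain ⟨f⟩ : Nonempty ({x // x ∈ ({z}ᶜ : Finset (Fin n))} ≃ Fin (n - 1)) :=
          exists_equiv _ (by rw [Finset.card_compl, Fintype.card_fin, Finset.card_singleton])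
        have h := IH 7 (by omega) _ _ (alt_le_img _ e hAG)
          (hall_img _ e (setStab_compl_singleton z ▸ hall_fix hH htr z)) (h7 ▸ hN')
        rcases h with ⟨-, hP', -⟩ | ⟨-, -, C, hC, hCle⟩ | ⟨h, -, -⟩
        · exact absurd ((hP' 5 (by norm_num) (by norm_num)).2 (by norm_num))
            fun h => by have := (hP7 5 (by norm_num) (by norm_num)).1 h; omega
        · exact ⟨C, hC, hCle⟩
        · omega)
      refine Or.inr (Or.inr ⟨hn, fun q hq hqn => hP7 q hq ?_, B, hB, hle⟩)
      rcases eq_or_lt_of_le hqn with rfl | h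
      · exact absurd (hn ▸ hq) (by norm_num)
      · omega
    · exfalso
      have hn : n = 9 := by omega
      have hP8 : P23 π 8 := h8 ▸ hP
      refine no_nine hn hP8 hAG hH htr (fun z e => ?_)
      have h := IH 8 (by omega) _ _ (alt_le_img _ e hAG)
        (hall_img _ e (setStab_compl_singleton z ▸ hall_fix hH htr z)) (h8 ▸ hN')
      rcases h with ⟨h, -, -⟩ | ⟨h, -, -⟩ | ⟨-, -, C, hC, hCle⟩
      · exact absurd h (by norm_num)
      · omega
      · exact ⟨C, hC, hCle⟩
  · -- the order has two prime divisors, one of them the degree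
    exfalso
    push Not at htwo
    obtain ⟨p, hp, hpπ, hplt, hnp, hnπ, honly⟩ : ∃ p, p.Prime ∧ p ∈ π ∧ p < n ∧ n.Prime ∧ n ∈ π ∧
        ∀ q, q.Prime → q ∈ π → q < n → q = p := by
      have hu : ∀ q, q.Prime → q ∈ π → q < n → ∀ q', q'.Prime → q' ∈ π → q' < n → q' = q := by
        intro q hq hqπ hqn q' hq' hq'π hq'n
        by_contra hne
        have := htwo q' q hq' hq hne hq'π hqπ (by omega)
        omega
      rcases eq_or_lt_of_le hrn with rfl | hr'
      · exact ⟨s, hs, hsπ, lt_of_le_of_ne hsn (Ne.symm hrs), hr, hrπ,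
          fun q hq hqπ hqn => hu s hs hsπ (lt_of_le_of_ne hsn (Ne.symm hrs)) q hq hqπ hqn⟩
      · rcases eq_or_lt_of_le hsn with rfl | hs'
        · exact ⟨r, hr, hrπ, hr', hs, hsπ, fun q hq hqπ hqn => hu r hr hrπ hr' q hq hqπ hqn⟩
        · exact absurd (hu s hs hsπ hs' r hr hrπ hr') hrs
    haveI : Fact n.Prime := ⟨hnp⟩
    have hsmall : ∀ q, q.Prime → q ∣ Nat.card H → q = p ∨ q = n := by
      intro q hq hqd
      have hqn : q ≤ n := hq.dvd_factorial.1 (hqd.trans (by
        have := H.card_subgroup_dvd_card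
        rwa [Nat.card_perm, Nat.card_fin] at this))
      rcases eq_or_lt_of_le hqn with rfl | h
      · exact Or.inr rfl
      · exact Or.inl (honly q hq (hH.2.1 q hq hqd) h)
    haveI hsolv : Group.IsSolvable H :=
      Char.solvable_of_card_eq_pow_mul_pow p n hp hnp (Nat.card H) rfl hsmall
    haveI : Nonempty (Fin n) := ⟨0⟩
    haveI : MulAction.IsPretransitive H (Fin n) :=
      ⟨fun x y => by obtain ⟨h, hh, he⟩ := htr x y; exact ⟨⟨h, hh⟩, he⟩⟩
    haveI : Nontrivial H := by
      obtain ⟨h, hh, he⟩ := htr 0 ⟨1, by omega⟩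
      refine ⟨⟨⟨h, hh⟩, 1, fun e => ?_⟩⟩
      have : h = 1 := congrArg Subtype.val e
      rw [this, Perm.one_apply] at he
      exact absurd (congrArg Fin.val he) (by simp)
    obtain ⟨D, hDn, hDab, hDne⟩ : ∃ D : Subgroup H, D.Normal ∧ (∀ a ∈ D, ∀ b ∈ D, a * b = b * a) ∧ D ≠ ⊥ := by
      obtain ⟨k, hk⟩ := (isSolvable_def (G := H)).1 inferInstance
      induction k with
      | zero => exact absurd hk top_ne_bot
      | succ k ih =>
        by_cases h : derivedSeries H k = ⊥
        · exact ih h
        · refine ⟨derivedSeries H k, derivedSeries_normal H k, fun a ha b hb => ?_, h⟩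
          rw [← commutatorElement_eq_one_iff_mul_comm, ← Subgroup.mem_bot, ← hk, derivedSeries_succ]
          exact Subgroup.commutator_mem_commutator ha hb
    have hDtr : ∀ x y : Fin n, ∃ d ∈ D, (d : Perm (Fin n)) x = y := by
      have hblk : ∀ x : Fin n, (MulAction.orbit D x).ncard = 1 ∨ (MulAction.orbit D x).ncard = n := by
        intro x
        have := (MulAction.IsBlock.orbit_of_normal (G := H) (N := D) x).ncard_dvd_card
          ⟨x, MulAction.mem_orbit_self x⟩
        rw [Nat.card_fin] at this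
        exact (Nat.dvd_prime hnp).1 this
      obtain ⟨x0, hx0⟩ : ∃ x, (MulAction.orbit D x).ncard = n := by
        by_contra hc
        push Not at hc
        refine hDne (eq_bot_iff.2 fun d hd => ?_)
        rw [Subgroup.mem_bot]
        refine Subtype.ext (Equiv.ext fun x => ?_)
        obtain ⟨w, hw⟩ := Set.ncard_eq_one.1 ((hblk x).resolve_right (hc x))
        have h1 : (d : Perm (Fin n)) x ∈ MulAction.orbit D x := ⟨⟨d, hd⟩, rfl⟩
        have h2 : x ∈ MulAction.orbit D x := MulAction.mem_orbit_self x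
        rw [hw, Set.mem_singleton_iff] at h1 h2
        rw [h1, OneMemClass.coe_one, Perm.one_apply, h2]
      have huniv : MulAction.orbit D x0 = Set.univ := Set.eq_of_subset_of_ncard_le (Set.subset_univ _)
        (by rw [Set.ncard_univ, Nat.card_fin, hx0]) (Set.toFinite _)
      intro x y
      obtain ⟨d1, hd1⟩ : x ∈ MulAction.orbit D x0 := huniv ▸ Set.mem_univ x
      obtain ⟨d2, hd2⟩ : y ∈ MulAction.orbit D x0 := huniv ▸ Set.mem_univ y
      refine ⟨(d2 * d1⁻¹).1, (d2 * d1⁻¹).2, ?_⟩
      have e1 : ((d1 : H) : Perm (Fin n)) x0 = x := hd1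
      have e2 : ((d2 : H) : Perm (Fin n)) x0 = y := hd2
      rw [← e1, ← e2]
      simp
    have hcent : ∀ g : H, (∀ d ∈ D, g * d = d * g) → g ∈ D := by
      intro g hg
      obtain ⟨d, hd, hde⟩ := hDtr 0 ((g : Perm (Fin n)) 0)
      have : g = d := by
        refine Subtype.ext (Equiv.ext fun y => ?_)
        obtain ⟨c, hc, hce⟩ := hDtr 0 y
        rw [← hce]
        have h1 := congrArg (fun h : H => (h : Perm (Fin n)) 0) (hg c hc)
        have h2 := congrArg (fun h : H => (h : Perm (Fin n)) 0) (hDab d hd c hc)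
        simp only [Subgroup.coe_mul, Perm.mul_apply] at h1 h2
        rw [h1, h2, hde]
      exact this ▸ hd
    have hDcard : Nat.card D = n := by
      refine (Nat.card_eq_of_bijective (fun d : D => ((d : H) : Perm (Fin n)) 0) ⟨fun a b hab => ?_,
        fun y => ?_⟩).trans (Nat.card_fin n)
      · refine Subtype.ext (Subtype.ext (Equiv.ext fun y => ?_))
        obtain ⟨c, hc, hce⟩ := hDtr 0 y
        rw [← hce]
        have h1 := congrArg (fun h : H => (h : Perm (Fin n)) 0) (hDab a.1 a.2 c hc)
        have h2 := congrArg (fun h : H => (h : Perm (Fin n)) 0) (hDab b.1 b.2 c hc)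
        simp only [Subgroup.coe_mul, Perm.mul_apply] at h1 h2
        simp only at hab
        rw [h1, h2, hab]
      · obtain ⟨d, hd, hde⟩ := hDtr 0 y
        exact ⟨⟨d, hd⟩, hde⟩
    haveI := hDn
    haveI : IsCyclic D := isCyclic_of_prime_card hDcard
    have hdvdH : Nat.card H ∣ n * (n - 1) := by
      have hker : (MulAut.conjNormal (H := D)).ker = D := by
        ext g
        rw [MonoidHom.mem_ker]
        constructor
        · intro h
          refine hcent g fun d hd => ?_
          have := congrArg Subtype.val (DFunLike.congr_fun h ⟨d, hd⟩)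
          rw [MulAut.conjNormal_apply] at this
          exact mul_inv_eq_iff_eq_mul.1 this
        · intro h
          refine MulEquiv.ext fun d => Subtype.ext ?_
          rw [MulAut.conjNormal_apply, hDab g h d.1 d.2, mul_inv_cancel_right]
          rfl
      have := (MulAut.conjNormal (H := D)).range.card_subgroup_dvd_card
      rw [← Subgroup.index_ker, hker, IsCyclic.card_mulAut, hDcard, Nat.totient_prime hnp] at this
      rw [← D.card_mul_index, hDcard]
      exact Nat.mul_dvd_mul_left n this
    haveI : Nontrivial (Fin n) := Fin.nontrivial_iff_two_le.2 (by omega)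
    have hrel := Subgroup.card_mul_index (H.subgroupOf G)
    rw [Nat.card_congr (Subgroup.subgroupOfEquivOfLe hH.1).toEquiv] at hrel
    by_cases hn5 : n = 5
    · -- degree five
      have hp' : p = 2 ∨ p = 3 := by
        have := hp.two_le
        have : p ≠ 4 := fun e => absurd (e ▸ hp) (by norm_num)
        omega
      have h120 : n.factorial = 2 ^ 3 * 3 * 5 := by rw [hn5]; decide
      have hm : H.relIndex G ∣ 2 ^ 3 * 3 * 5 := h120 ▸ hpi
      rcases hp' with rfl | rfl
      · have hc3 : Nat.Coprime (H.relIndex G) (2 ^ 3) := Nat.Coprime.pow_right 3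
          ((Nat.coprime_comm).1 ((Nat.Prime.coprime_iff_not_dvd Nat.prime_two).2 (hH.2.2 2 hp hpπ)))
        have hc5 : Nat.Coprime (H.relIndex G) 5 :=
          (Nat.coprime_comm).1 ((Nat.Prime.coprime_iff_not_dvd (by norm_num)).2
            (hH.2.2 5 (by norm_num) (hn5 ▸ hnπ)))
        have h3 : H.relIndex G ∣ 3 := hc3.dvd_of_dvd_mul_left (hc5.dvd_of_dvd_mul_right hm)
        have hA := alt_le_of_relIndex_lt h5 hAG
          (lt_of_le_of_lt (Nat.le_of_dvd (by norm_num) h3) (by omega))
        have h2 : 2 * Nat.card (alternatingGroup (Fin n)) = n.factorial := by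
          rw [two_mul_nat_card_alternatingGroup, Nat.card_perm, Nat.card_fin]
        have : 3 ∣ Nat.card H :=
          (show 3 ∣ Nat.card (alternatingGroup (Fin n)) by omega).trans (Subgroup.card_dvd_of_le hA)
        rcases hsmall 3 Nat.prime_three this with h | h <;> omega
      · have h15 : 3 ∣ Nat.card H := by
          have h2 : 2 * Nat.card (alternatingGroup (Fin n)) = n.factorial := by
            rw [two_mul_nat_card_alternatingGroup, Nat.card_perm, Nat.card_fin]
          have h3G : 3 ∣ Nat.card G :=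
            (show 3 ∣ Nat.card (alternatingGroup (Fin n)) by omega).trans (Subgroup.card_dvd_of_le hAG)
          rw [← hrel] at h3G
          exact ((Nat.Prime.dvd_mul Nat.prime_three).1 h3G).resolve_right (hH.2.2 3 hp hpπ)
        have := h15.trans hdvdH
        rw [hn5] at this
        norm_num at this
    · have h7 : 7 ≤ n := by
        have : n ≠ 6 := fun e => absurd (e ▸ hnp) (by norm_num)
        omega
      haveI : Fact p.Prime := ⟨hp⟩
      have hGn : n.factorial ∣ 2 * Nat.card G := by
        rw [← show 2 * Nat.card (alternatingGroup (Fin n)) = n.factorial by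
          rw [two_mul_nat_card_alternatingGroup, Nat.card_perm, Nat.card_fin]]
        exact Nat.mul_dvd_mul_left 2 (Subgroup.card_dvd_of_le hAG)
      have h1 : n.factorial.factorization p ≤ (2 * Nat.card G).factorization p :=
        (Nat.factorization_le_iff_dvd (Nat.factorial_ne_zero n)
          (Nat.mul_ne_zero two_ne_zero Nat.card_pos.ne')).2 hGn p
      have h2 : (2 * Nat.card G).factorization p ≤ (2 * (n * (n - 1))).factorization p := by
        rw [Nat.factorization_mul two_ne_zero Nat.card_pos.ne',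
          Nat.factorization_mul two_ne_zero (Nat.mul_ne_zero (by omega) (by omega)), ← hrel,
          Nat.factorization_mul Nat.card_pos.ne' Subgroup.FiniteIndex.index_ne_zero]
        simp only [Finsupp.add_apply]
        rw [Nat.factorization_eq_zero_of_not_dvd (show ¬ p ∣ (H.subgroupOf G).index from hH.2.2 p hp hpπ)]
        have := (Nat.factorization_le_iff_dvd Nat.card_pos.ne'
          (Nat.mul_ne_zero (by omega) (by omega))).2 hdvdH p
        omega
      have h3 : n.factorial = n * (n - 1) * (n - 2).factorial := by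
        rw [mul_assoc, show n - 2 = n - 1 - 1 from rfl, Nat.mul_factorial_pred (by omega),
          Nat.mul_factorial_pred (by omega)]
      rw [h3, Nat.factorization_mul (Nat.mul_ne_zero (by omega) (by omega)) (Nat.factorial_ne_zero _),
        Finsupp.add_apply] at h1
      rw [Nat.factorization_mul two_ne_zero (Nat.mul_ne_zero (by omega) (by omega)),
        Finsupp.add_apply] at h2
      rcases eq_or_ne p 2 with rfl | hp2
      · have h4 : 2 ^ 3 ∣ (n - 2).factorial :=
          (show 2 ^ 3 ∣ Nat.factorial 5 by decide).trans (Nat.factorial_dvd_factorial (by omega))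
        have h5' := (hp.pow_dvd_iff_le_factorization (Nat.factorial_ne_zero _)).1 h4
        rw [Nat.Prime.factorization_self hp] at h2
        omega
      · have hple : p ≤ n - 2 := by
          obtain ⟨k, hk⟩ := hp.odd_of_ne_two hp2
          obtain ⟨l, hl⟩ := hnp.odd_of_ne_two (by omega)
          omega
        have h5' := hp.factorization_pos_of_dvd (Nat.factorial_ne_zero _) (hp.dvd_factorial.2 hple)
        rw [Nat.factorization_eq_zero_of_not_dvd (fun h => hp2
          ((Nat.prime_dvd_prime_iff_eq hp Nat.prime_two).1 h))] at h2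
        omega

/-- The shapes of the Hall subgroups of a group above the alternating group. -/
theorem shape_of_hall (π : Set ℕ) : ∀ (n : ℕ) (G H : Subgroup (Perm (Fin n))),
    alternatingGroup (Fin n) ≤ G → Cfsg.IsPiHallOf π H G → Nontriv π n → Shape π n H := by
  intro n
  induction n using Nat.strong_induction_on with
  | _ n ih =>
    intro G H hAG hH hN
    by_cases htr : ∀ x y : Fin n, ∃ h ∈ H, h x = y
    · exact transitive ih hAG hH hN htr
    classical
    push Not at htr
    obtain ⟨x, y, hxy⟩ := htr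
    set B := Finset.univ.filter fun z : Fin n => ∃ h ∈ H, h x = z with hBdef
    have hle : H ≤ setStab B := fun h hh => inter_mem fun z hz => by
      simp only [hBdef, Finset.mem_filter, Finset.mem_univ, true_and] at hz ⊢
      obtain ⟨g, hg, rfl⟩ := hz
      exact ⟨h * g, H.mul_mem hh hg, rfl⟩
    have h1 : 1 ≤ B.card := Finset.card_pos.2 ⟨x, by
      simp only [hBdef, Finset.mem_filter, Finset.mem_univ, true_and]
      exact ⟨1, H.one_mem, rfl⟩⟩
    have h2 : B.card < n := by
      have : B ⊂ Finset.univ := Finset.ssubset_univ_iff.2 fun he => by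
        have hy : y ∈ B := he ▸ Finset.mem_univ y
        simp only [hBdef, Finset.mem_filter, Finset.mem_univ, true_and] at hy
        obtain ⟨h, hh, he'⟩ := hy
        exact hxy h hh he'
      simpa using Finset.card_lt_card this
    rcases Nat.lt_or_ge (2 * B.card) (n + 1) with h | h
    · exact intransitive ih hAG hH hN hle h1 (by omega)
    · refine intransitive ih hAG hH hN (B := Bᶜ) (by rw [setStab_compl]; exact hle) ?_ ?_ <;>
        rw [Finset.card_compl, Fintype.card_fin] <;> omega

end Cfsg.Agent.PermHall
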