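import Cfsg.Agent.PermHall.Classify
import Cfsg.Agent.H73.HallSym
import Cfsg.Prelude.Def_HallClasses

/-!
Existence, conjugacy and dominance of Hall subgroups of symmetric and alternating groups.
-/

set_option autoImplicit false
set_option linter.style.haveILetI false

namespace Cfsg.Agent.PermHall

open Equiv Equiv.Perm

section General

variable {G : Type*} [Group G] [Finite G] {π : Set ℕ}

theorem isPiSubgroup_congr {π' : Set ℕ} (h : ∀ p, p.Prime → p ∣ Nat.card G → (p ∈ π ↔ p ∈ π')) :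
    (Cfsg.IsPiSubgroup π : Subgroup G → Prop) = Cfsg.IsPiSubgroup π' := by
  funext K
  refine propext ⟨fun hK p hp hd => (h p hp (hd.trans K.card_subgroup_dvd_card)).1 (hK p hp hd),
    fun hK p hp hd => (h p hp (hd.trans K.card_subgroup_dvd_card)).2 (hK p hp hd)⟩

theorem dPi_of_trivial
    (h : (∀ r s, r.Prime → s.Prime → r ∈ π → s ∈ π → r ∣ Nat.card G → s ∣ Nat.card G → r = s) ∨
      ∀ r, r.Prime → r ∣ Nat.card G → r ∈ π) :
    Cfsg.IsDPiGroup π G := by
  obtain ⟨π', heq, h'⟩ : ∃ π' : Set ℕ,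
      (∀ p, p.Prime → p ∣ Nat.card G → (p ∈ π ↔ p ∈ π')) ∧
      ((∀ p q : ℕ, p.Prime → q.Prime → p ∈ π' → q ∈ π' → p = q) ∨ ∀ p : ℕ, p.Prime → p ∈ π') := by
    rcases h with h | h
    · exact ⟨{p | p ∈ π ∧ p ∣ Nat.card G}, fun p _ hd => ⟨fun h1 => ⟨h1, hd⟩, fun h1 => h1.1⟩,
        Or.inl fun p q hp hq hpπ hqπ => h p q hp hq hpπ.1 hqπ.1 hpπ.2 hqπ.2⟩
    · exact ⟨Set.univ, fun p hp hd => ⟨fun _ => trivial, fun _ => h p hp hd⟩,
        Or.inr fun p _ => trivial⟩
  have := H73.HallSym.isDPiGroup_of h' G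
  intro H K hH hK
  rw [isPiSubgroup_congr heq] at hH hK
  exact this H K hH hK

theorem maximal_of_hall {H : Subgroup G} (hH : Cfsg.IsPiHall π H) :
    Maximal (Cfsg.IsPiSubgroup π) H :=
  ⟨hH.1, fun K hK hle => (Agent.Hall.eq_of_le_of_isPiHall hH hK hle).ge⟩

theorem cPi_of_dPi (h : Cfsg.IsDPiGroup π G) : Cfsg.IsCPiGroup π G :=
  ⟨H73.HallSym.isEPiGroup_of_isDPiGroup h, fun H K hH hK => h H K (maximal_of_hall hH) (maximal_of_hall hK)⟩

theorem exists_hall_ge (h : Cfsg.IsDPiGroup π G) {K : Subgroup G} (hK : Cfsg.IsPiSubgroup π K) :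
    ∃ M, K ≤ M ∧ Cfsg.IsPiHall π M := by
  obtain ⟨H, hH⟩ := H73.HallSym.isEPiGroup_of_isDPiGroup h
  obtain ⟨M, hKM, hM⟩ := Finite.exists_le_maximal hK
  obtain ⟨g, rfl⟩ := h H M (maximal_of_hall hH) hM
  refine ⟨_, hKM, ?_, fun p hp hpπ hd => hH.2 p hp hpπ ?_⟩
  · intro p hp hd
    exact hH.1 p hp (hd.trans (Subgroup.card_map_dvd (H := H) _))
  · rwa [Subgroup.index_map_of_bijective (by exact (MulAut.conj g).bijective)] at hd

end General

variable {n : ℕ} {π : Set ℕ}

theorem prime_le_of_dvd {G : Subgroup (Perm (Fin n))} {p : ℕ} (hp : p.Prime) (hd : p ∣ Nat.card G) :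
    p ≤ n := by
  have h := hd.trans G.card_subgroup_dvd_card
  rw [Nat.card_perm, Nat.card_fin] at h
  exact hp.dvd_factorial.1 h

theorem prime_le_of_dvd_perm {p : ℕ} (hp : p.Prime) (hd : p ∣ Nat.card (Perm (Fin n))) : p ≤ n := by
  rw [Nat.card_perm, Nat.card_fin] at hd
  exact hp.dvd_factorial.1 hd

theorem trivial_of_not_nontriv (h : ¬ Nontriv π n) :
    (∀ r s, r.Prime → s.Prime → r ∈ π → s ∈ π → r ≤ n → s ≤ n → r = s) ∨
      ∀ r, r.Prime → r ≤ n → r ∈ π := by
  refine or_iff_not_imp_right.2 fun hall r s hr hs hrπ hsπ hrn hsn => ?_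
  by_contra hne
  push Not at hall
  exact h ⟨⟨r, s, hr, hs, hne, hrπ, hsπ, hrn, hsn⟩, hall⟩

theorem dPi_perm_of_not_nontriv (h : ¬ Nontriv π n) : Cfsg.IsDPiGroup π (Perm (Fin n)) := by
  rcases trivial_of_not_nontriv h with h' | h'
  · exact dPi_of_trivial (Or.inl fun r s hr hs hrπ hsπ hrd hsd =>
      h' r s hr hs hrπ hsπ (prime_le_of_dvd_perm hr hrd) (prime_le_of_dvd_perm hs hsd))
  · exact dPi_of_trivial (Or.inr fun r hr hd => h' r hr (prime_le_of_dvd_perm hr hd))

theorem dPi_alt_of_not_nontriv (h : ¬ Nontriv π n) : Cfsg.IsDPiGroup π (alternatingGroup (Fin n)) := by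
  rcases trivial_of_not_nontriv h with h' | h'
  · exact dPi_of_trivial (Or.inl fun r s hr hs hrπ hsπ hrd hsd =>
      h' r s hr hs hrπ hsπ (prime_le_of_dvd hr hrd) (prime_le_of_dvd hs hsd))
  · exact dPi_of_trivial (Or.inr fun r hr hd => h' r hr (prime_le_of_dvd hr hd))

/-- The condition for Hall subgroups in a non-trivial situation. -/
def Cond (π : Set ℕ) (n : ℕ) : Prop :=
  (n.Prime ∧ BelowN π n) ∨ ((n = 7 ∨ n = 8) ∧ P23 π n)

theorem exists_hall_of_cond (hC : Cond π n) : ∃ T : Subgroup (Perm (Fin n)), Cfsg.IsPiHall π T := by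
  rcases hC with ⟨hn, hP⟩ | ⟨hn | hn, hP⟩
  · exact ⟨_, hall_point hn hP ⟨0, hn.pos⟩⟩
  · obtain ⟨B, -, hB⟩ := Finset.exists_subset_card_eq (s := (Finset.univ : Finset (Fin n))) (n := 3)
      (by rw [Finset.card_univ, Fintype.card_fin]; omega)
    exact ⟨_, hall_seven hn hP hB⟩
  · obtain ⟨B, -, hB⟩ := Finset.exists_subset_card_eq (s := (Finset.univ : Finset (Fin n))) (n := 4)
      (by rw [Finset.card_univ, Fintype.card_fin]; omega)
    exact ⟨_, hall_eight hn hP hB⟩

theorem cond_of_shape {H : Subgroup (Perm (Fin n))} (h : Shape π n H) : Cond π n := by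
  rcases h with ⟨h1, h2, -⟩ | ⟨h1, h2, -⟩ | ⟨h1, h2, -⟩
  · exact Or.inl ⟨h1, h2⟩
  · exact Or.inr ⟨Or.inl h1, h2⟩
  · exact Or.inr ⟨Or.inr h1, h2⟩

/-- Every Hall subgroup comes from one of the symmetric group. -/
theorem exists_overgroup {G H : Subgroup (Perm (Fin n))} (hAG : alternatingGroup (Fin n) ≤ G)
    (hH : Cfsg.IsPiHallOf π H G) (hN : Nontriv π n) :
    ∃ T : Subgroup (Perm (Fin n)), Cfsg.IsPiHall π T ∧ H = T ⊓ G := by
  have key : ∀ T : Subgroup (Perm (Fin n)), Cfsg.IsPiHall π T → H ≤ T →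
      ∃ T : Subgroup (Perm (Fin n)), Cfsg.IsPiHall π T ∧ H = T ⊓ G := fun T hT hle =>
    ⟨T, hT, hallOf_eq hH (hall_inter hAG hT) (le_inf hle hH.1)⟩
  rcases shape_of_hall π n G H hAG hH hN with ⟨h1, h2, x, hx⟩ | ⟨h1, h2, B, hB, hle⟩ | ⟨h1, h2, B, hB, hle⟩
  · exact key _ (hall_point h1 h2 x) hx
  · exact key _ (hall_seven h1 h2 hB) hle
  · exact key _ (hall_eight h1 h2 hB) hle

theorem map_conj_setStab {g : Perm (Fin n)} {B C : Finset (Fin n)} (hg : ∀ x, g x ∈ C ↔ x ∈ B) :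
    (setStab B).map (MulAut.conj g).toMonoidHom = setStab C := by
  ext σ
  rw [Subgroup.mem_map_equiv, mem_setStab, mem_setStab]
  constructor
  · intro h x
    have := h (g⁻¹ x)
    rw [← hg, ← hg] at this
    simpa using this
  · intro h x
    rw [← hg, ← hg x]
    simpa using h (g x)

theorem map_conj_partStab {g : Perm (Fin n)} {B C : Finset (Fin n)} (hg : ∀ x, g x ∈ C ↔ x ∈ B) :
    (partStab B).map (MulAut.conj g).toMonoidHom = partStab C := by
  ext σ
  rw [Subgroup.mem_map_equiv, mem_partStab, mem_partStab, Sides, Sides]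
  refine or_congr ?_ ?_
  · constructor
    · intro h x
      have := h (g⁻¹ x)
      rw [← hg, ← hg] at this
      simpa using this
    · intro h x
      rw [← hg, ← hg x]
      simpa using h (g x)
  · constructor
    · intro h x
      have := h (g⁻¹ x)
      rw [← hg, ← hg] at this
      simpa using this
    · intro h x
      rw [← hg, ← hg x]
      simpa using h (g x)

theorem exists_even_map {B C : Finset (Fin n)} (h : B.card = C.card)
    (h2 : 2 ≤ B.card ∨ 2 ≤ n - B.card) :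
    ∃ g ∈ alternatingGroup (Fin n), ∀ x, g x ∈ C ↔ x ∈ B := by
  obtain ⟨g, hg⟩ := setStab_of_card_eq h
  rcases Int.units_eq_one_or (Perm.sign g) with hs | hs
  · exact ⟨g, hs, hg⟩
  · obtain ⟨τ, hτ, hτs⟩ := exists_odd_setStab h2
    refine ⟨g * τ, ?_, fun x => (hg (τ x)).trans (hτ x)⟩
    rw [Perm.mem_alternatingGroup, map_mul, hs, hτs]
    rfl

/-- Hall subgroups are conjugate by even permutations. -/
theorem exists_conj {G H K : Subgroup (Perm (Fin n))} (hAG : alternatingGroup (Fin n) ≤ G)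
    (hH : Cfsg.IsPiHallOf π H G) (hK : Cfsg.IsPiHallOf π K G) (hN : Nontriv π n) :
    ∃ g ∈ alternatingGroup (Fin n), K = H.map (MulAut.conj g).toMonoidHom := by
  have h5 := five_le hN
  have h55 : Nat.Prime 5 := by norm_num
  haveI := normal_of_alt_le hAG
  obtain ⟨g, hgA, T, hT, hHT, hKT⟩ : ∃ g ∈ alternatingGroup (Fin n), ∃ T : Subgroup (Perm (Fin n)),
      Cfsg.IsPiHall π T ∧ H ≤ T ∧ K ≤ T.map (MulAut.conj g).toMonoidHom := by
    rcases shape_of_hall π n G H hAG hH hN with ⟨h1, h2, x, hx⟩ | ⟨h1, h2, B, hB, hle⟩ | ⟨h1, h2, B, hB, hle⟩ <;>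
      rcases shape_of_hall π n G K hAG hK hN with ⟨k1, k2, y, hy⟩ | ⟨k1, k2, C, hC, kle⟩ | ⟨k1, k2, C, hC, kle⟩
    · obtain ⟨g, hgA, hg⟩ := exists_even_map (B := {x}) (C := {y}) (by simp)
        (Or.inr (by rw [Finset.card_singleton]; omega))
      exact ⟨g, hgA, _, hall_point h1 h2 x, hx, by rw [map_conj_setStab hg]; exact hy⟩
    · have := (k2 5 h55 h5).1 ((h2 5 h55 h5).2 (by omega)); omega
    · exact absurd (k1 ▸ h1) (by norm_num)
    · have := (h2 5 h55 h5).1 ((k2 5 h55 h5).2 (by omega)); omega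
    · obtain ⟨g, hgA, hg⟩ := exists_even_map (B := B) (C := C) (hB.trans hC.symm) (Or.inl (by omega))
      exact ⟨g, hgA, _, hall_seven h1 h2 hB, hle, by rw [map_conj_setStab hg]; exact kle⟩
    · omega
    · exact absurd (h1 ▸ k1) (by norm_num)
    · omega
    · obtain ⟨g, hgA, hg⟩ := exists_even_map (B := B) (C := C) (hB.trans hC.symm) (Or.inl (by omega))
      exact ⟨g, hgA, _, hall_eight h1 h2 hB, hle, by rw [map_conj_partStab hg]; exact kle⟩
  refine ⟨g, hgA, ?_⟩
  have hT' : Cfsg.IsPiHall π (T.map (MulAut.conj g).toMonoidHom) := by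
    refine ⟨fun p hp hd => hT.1 p hp (hd.trans (Subgroup.card_map_dvd (H := T) _)),
      fun p hp hpπ hd => hT.2 p hp hpπ ?_⟩
    rwa [Subgroup.index_map_of_bijective (by exact (MulAut.conj g).bijective)] at hd
  rw [hallOf_eq hH (hall_inter hAG hT) (le_inf hHT hH.1),
    hallOf_eq hK (hall_inter hAG hT') (le_inf hKT hK.1),
    Subgroup.map_inf _ _ _ (MulAut.conj g).injective]
  congr 1
  ext σ
  rw [Subgroup.mem_map_equiv, MulAut.conj_symm_apply]
  refine ⟨fun h => ?_, fun h => ?_⟩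
  · simpa using (inferInstance : G.Normal).conj_mem σ h g⁻¹
  · simpa [mul_assoc] using (inferInstance : G.Normal).conj_mem _ h g

theorem hallOf_map {M : Subgroup (alternatingGroup (Fin n))} (hM : Cfsg.IsPiHall π M) :
    Cfsg.IsPiHallOf π (M.map (alternatingGroup (Fin n)).subtype) (alternatingGroup (Fin n)) := by
  rw [Agent.Hall.isPiHallOf_iff]
  refine ⟨Subgroup.map_subtype_le M, ?_⟩
  rw [← Subgroup.comap_subtype, Subgroup.comap_map_eq_self_of_injective (Subgroup.subtype_injective _)]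
  exact hM

theorem hallOf_top {H : Subgroup (Perm (Fin n))} (hH : Cfsg.IsPiHall π H) :
    Cfsg.IsPiHallOf π H ⊤ :=
  ⟨le_top, hH.1, fun p hp hpπ hd => hH.2 p hp hpπ (by rwa [Subgroup.relIndex_top_right] at hd)⟩

theorem cond_of_ePi_perm (hN : Nontriv π n) (h : Cfsg.IsEPiGroup π (Perm (Fin n))) : Cond π n := by
  obtain ⟨H, hH⟩ := h
  exact cond_of_shape (shape_of_hall π n ⊤ H le_top (hallOf_top hH) hN)

theorem ePi_alt_of_ePi_perm (h : Cfsg.IsEPiGroup π (Perm (Fin n))) :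
    Cfsg.IsEPiGroup π (alternatingGroup (Fin n)) := by
  obtain ⟨H, hH⟩ := h
  obtain ⟨-, h2⟩ := Agent.Hall.isPiHallOf_iff.1 (hall_inter (le_refl (alternatingGroup (Fin n))) hH)
  exact ⟨_, h2⟩

theorem ePi_perm_of_ePi_alt (h : Cfsg.IsEPiGroup π (alternatingGroup (Fin n))) :
    Cfsg.IsEPiGroup π (Perm (Fin n)) := by
  by_cases hN : Nontriv π n
  · obtain ⟨M, hM⟩ := h
    obtain ⟨T, hT, -⟩ := exists_overgroup le_rfl (hallOf_map hM) hN
    exact ⟨T, hT⟩
  · exact H73.HallSym.isEPiGroup_of_isDPiGroup (dPi_perm_of_not_nontriv hN)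

theorem cPi_perm_of_ePi (h : Cfsg.IsEPiGroup π (Perm (Fin n))) :
    Cfsg.IsCPiGroup π (Perm (Fin n)) := by
  by_cases hN : Nontriv π n
  · refine ⟨h, fun H K hH hK => ?_⟩
    obtain ⟨g, -, hg⟩ := exists_conj le_top (hallOf_top hH) (hallOf_top hK) hN
    exact ⟨g, hg⟩
  · exact cPi_of_dPi (dPi_perm_of_not_nontriv hN)

theorem cPi_alt_of_ePi (h : Cfsg.IsEPiGroup π (alternatingGroup (Fin n))) :
    Cfsg.IsCPiGroup π (alternatingGroup (Fin n)) := by
  by_cases hN : Nontriv π n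
  · refine ⟨h, fun H K hH hK => ?_⟩
    obtain ⟨g, hgA, hg⟩ := exists_conj le_rfl (hallOf_map hH) (hallOf_map hK) hN
    refine ⟨⟨g, hgA⟩, ?_⟩
    refine Subgroup.map_injective (Subgroup.subtype_injective (alternatingGroup (Fin n))) ?_
    rw [hg, Subgroup.map_map, Subgroup.map_map]
    rfl
  · exact cPi_of_dPi (dPi_alt_of_not_nontriv hN)

theorem exists_perm_hall_of_alt {M : Subgroup (alternatingGroup (Fin n))} (hM : Cfsg.IsPiHall π M) :
    ∃ T : Subgroup (Perm (Fin n)), Cfsg.IsPiHall π T ∧ M = T.subgroupOf (alternatingGroup (Fin n)) := by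
  have key : ∀ T : Subgroup (Perm (Fin n)),
      M.map (alternatingGroup (Fin n)).subtype = T ⊓ alternatingGroup (Fin n) →
      M = T.subgroupOf (alternatingGroup (Fin n)) := fun T hT => by
    rw [← Subgroup.inf_subgroupOf_right, ← hT, ← Subgroup.comap_subtype,
      Subgroup.comap_map_eq_self_of_injective (Subgroup.subtype_injective _)]
  by_cases hN : Nontriv π n
  · obtain ⟨T, hT, he⟩ := exists_overgroup le_rfl (hallOf_map hM) hN
    exact ⟨T, hT, key T he⟩
  · obtain ⟨T, hle, hT⟩ := exists_hall_ge (dPi_perm_of_not_nontriv hN) (K := M.map (alternatingGroup (Fin n)).subtype)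
      (hallOf_map hM).2.1
    exact ⟨T, hT, key T (hallOf_eq (hallOf_map hM) (hall_inter le_rfl hT)
      (le_inf hle (hallOf_map hM).1))⟩

/-! ### No dominance in the non-trivial case -/

/-- The first six points. -/
def sixEquiv (h : 6 ≤ n) : Fin 6 ≃ {i : Fin n // i.val < 6} where
  toFun i := ⟨⟨i.val, lt_of_lt_of_le i.isLt h⟩, i.isLt⟩
  invFun i := ⟨i.1.val, i.2⟩
  left_inv _ := rfl
  right_inv _ := rfl

/-- A six-point subgroup of order dividing 72. -/
def sixGroup (h : 6 ≤ n) : Subgroup (Perm (Fin n)) :=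
  (partStab ({0, 1, 2} : Finset (Fin 6)) ⊓ alternatingGroup (Fin 6)).map
    (Equiv.Perm.extendDomainHom (sixEquiv h))

/-- Three generators on six points. -/
def sixGen : List (Perm (Fin 6)) :=
  [cyc 0 1 2, cyc 3 4 5, swap 0 3 * swap 1 4 * swap 2 5 * swap 0 1]

theorem sixGen_mem (h : 6 ≤ n) {g : Perm (Fin 6)} (hg : g ∈ sixGen) :
    g.extendDomain (sixEquiv h) ∈ sixGroup h := by
  refine ⟨g, ⟨?_, ?_⟩, rfl⟩
  · revert hg
    revert g
    show ∀ g ∈ sixGen, Sides ({0, 1, 2} : Finset (Fin 6)) g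
    unfold Sides sixGen
    decide +kernel
  · revert hg
    revert g
    show ∀ g ∈ sixGen, g ∈ alternatingGroup (Fin 6)
    simp only [Perm.mem_alternatingGroup]
    unfold sixGen
    decide +kernel

theorem sixGroup_le_alt (h : 6 ≤ n) : sixGroup h ≤ alternatingGroup (Fin n) := by
  rintro σ ⟨g, ⟨-, hg⟩, rfl⟩
  rw [Perm.mem_alternatingGroup]
  exact (Perm.sign_extendDomain _ _).trans hg

theorem seven_check : ∀ S : Finset (Fin 7), S.card = 3 →
    ∃ g ∈ sixGen, ∃ x, ¬ (g.extendDomain (sixEquiv (show 6 ≤ 7 by norm_num)) x ∈ S ↔ x ∈ S) := by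
  decide +kernel

theorem eight_check : ∀ S : Finset (Fin 8), S.card = 4 →
    ∃ g ∈ sixGen, (∃ x, ¬ (g.extendDomain (sixEquiv (show 6 ≤ 8 by norm_num)) x ∈ S ↔ x ∈ S)) ∧
      ∃ x, ¬ (g.extendDomain (sixEquiv (show 6 ≤ 8 by norm_num)) x ∈ S ↔ x ∉ S) := by
  decide +kernel

theorem not_dPi_alt (h5 : 5 ≤ n) (hN : Nontriv π n) :
    ¬ Cfsg.IsDPiGroup π (alternatingGroup (Fin n)) := by
  intro hD
  -- every π-subgroup of the alternating group lies in a Hall subgroup of the symmetric group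
  have hext : ∀ K : Subgroup (Perm (Fin n)), K ≤ alternatingGroup (Fin n) → Cfsg.IsPiSubgroup π K →
      ∃ H, K ≤ H ∧ Shape π n H := by
    intro K hK hpi
    obtain ⟨M, hKM, hM⟩ := exists_hall_ge hD (K := K.subgroupOf (alternatingGroup (Fin n)))
      (fun p hp hd => hpi p hp (by rwa [Nat.card_congr (Subgroup.subgroupOfEquivOfLe hK).toEquiv] at hd))
    refine ⟨M.map (alternatingGroup (Fin n)).subtype, fun x hx => ⟨⟨x, hK hx⟩, hKM hx, rfl⟩, ?_⟩
    exact shape_of_hall π n _ _ le_rfl (hallOf_map hM) hN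
  obtain ⟨M, hM⟩ := H73.HallSym.isEPiGroup_of_isDPiGroup hD
  have hcond := cond_of_shape (shape_of_hall π n _ _ le_rfl (hallOf_map hM) hN)
  have hsix : (n = 7 ∨ n = 8) → P23 π n → ∀ h6 : 6 ≤ n,
      ∃ H, sixGroup h6 ≤ H ∧ Shape π n H := by
    intro hn hP h6
    refine hext _ (sixGroup_le_alt h6) fun p hp hd => ?_
    have h72 := (hd.trans (Subgroup.card_map_dvd (H := partStab ({0, 1, 2} : Finset (Fin 6)) ⊓
      alternatingGroup (Fin 6)) _)).trans (Subgroup.card_dvd_of_le inf_le_left)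
    rw [card_partStab (m := 3) (by decide) (by norm_num) (by norm_num)] at h72
    have h3 : p ≤ 3 := by
      rcases hp.dvd_mul.1 h72 with h | h
      · exact (Nat.le_of_dvd two_pos h).trans (by norm_num)
      · rcases hp.dvd_mul.1 h with h | h <;> exact hp.dvd_factorial.1 h
    have := hp.two_le
    exact (hP p hp (by omega)).2 (by omega)
  have h55 : Nat.Prime 5 := by norm_num
  rcases hcond with ⟨hn, hP⟩ | ⟨hn | hn, hP⟩
  · set B : Finset (Fin n) := {⟨0, by omega⟩, ⟨1, by omega⟩} with hB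
    have hB2 : B.card = 2 := Finset.card_pair (by simp)
    obtain ⟨H, hle, hsh⟩ := hext (setStab B ⊓ alternatingGroup (Fin n)) inf_le_right fun p hp hd => by
      have h := le_of_prime_dvd_setStab hp (hd.trans (Subgroup.card_dvd_of_le inf_le_left))
      exact (hP p hp (by omega)).2 (by omega)
    rcases hsh with ⟨-, -, x, hx⟩ | ⟨h7, hP', -⟩ | ⟨h8, -, -⟩
    · obtain ⟨c, hc, hcx⟩ : ∃ c ∈ setStab B ⊓ alternatingGroup (Fin n), c x ≠ x := by
        obtain ⟨u, hu, v, hv, huv⟩ := Finset.one_lt_card.1 (show 1 < B.card by omega)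
        have hcompl : 2 < Bᶜ.card := by rw [Finset.card_compl, Fintype.card_fin, hB2]; omega
        obtain ⟨y, w, z, hy, hw, hz, hyw, hyz, hwz⟩ := Finset.two_lt_card_iff.1 hcompl
        rw [Finset.mem_compl] at hy hw hz
        have hmem : ∀ p q : Fin n, (p ∈ B ↔ q ∈ B) → swap p q ∈ setStab B := fun p q hpq t => by
          rw [Equiv.swap_apply_def]
          split_ifs with e1 e2
          · exact e1 ▸ hpq.symm
          · exact e2 ▸ hpq
          · exact Iff.rfl
        by_cases hxB : x ∈ B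
        · obtain ⟨v', hv', hxv⟩ : ∃ v' ∈ B, x ≠ v' := by
            rcases eq_or_ne x u with rfl | h
            · exact ⟨v, hv, huv⟩
            · exact ⟨u, hu, h⟩
          refine ⟨swap x v' * swap y w, ⟨(setStab B).mul_mem (hmem _ _ (iff_of_true hxB hv'))
            (hmem _ _ (iff_of_false hy hw)), ?_⟩, ?_⟩
          · show _ ∈ alternatingGroup (Fin n)
            rw [Perm.mem_alternatingGroup, map_mul, sign_swap hxv, sign_swap hyw]; rfl
          · rw [Perm.mul_apply, swap_apply_of_ne_of_ne (fun e : x = y => hy (e ▸ hxB))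
              (fun e : x = w => hw (e ▸ hxB)), swap_apply_left]
            exact hxv.symm
        · obtain ⟨t, htB, hxt⟩ : ∃ t, t ∉ B ∧ x ≠ t := by
            rcases eq_or_ne x y with rfl | h
            · exact ⟨w, hw, hyw⟩
            · exact ⟨y, hy, h⟩
          refine ⟨swap u v * swap x t, ⟨(setStab B).mul_mem (hmem _ _ (iff_of_true hu hv))
            (hmem _ _ (iff_of_false hxB htB)), ?_⟩, ?_⟩
          · show _ ∈ alternatingGroup (Fin n)
            rw [Perm.mem_alternatingGroup, map_mul, sign_swap huv, sign_swap hxt]; rfl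
          · rw [Perm.mul_apply, swap_apply_left, swap_apply_of_ne_of_ne (fun e : t = u => htB (e ▸ hu))
              (fun e : t = v => htB (e ▸ hv))]
            exact hxt.symm
      exact hcx (mem_setStab_singleton.1 (hx (hle hc)))
    · have := (hP' 5 h55 h5).1 ((hP 5 h55 h5).2 (by omega))
      omega
    · exact absurd (h8 ▸ hn) (by norm_num)
  · subst hn
    obtain ⟨H, hle, hsh⟩ := hsix (Or.inl rfl) hP (by norm_num)
    rcases hsh with ⟨-, hP', -⟩ | ⟨-, -, S, hS, hSle⟩ | ⟨h, -, -⟩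
    · have := (hP 5 h55 h5).1 ((hP' 5 h55 h5).2 (by norm_num)); omega
    · obtain ⟨g, hg, x, hx⟩ := seven_check S hS
      exact hx (hSle (hle (sixGen_mem _ hg)) x)
    · omega
  · subst hn
    obtain ⟨H, hle, hsh⟩ := hsix (Or.inr rfl) hP (by norm_num)
    rcases hsh with ⟨h, -, -⟩ | ⟨h, -, -⟩ | ⟨-, -, S, hS, hSle⟩
    · exact absurd h (by norm_num)
    · omega
    · obtain ⟨g, hg, ⟨x, hx⟩, y, hy⟩ := eight_check S hS
      rcases hSle (hle (sixGen_mem _ hg)) with h' | h'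
      · exact hx (h' x)
      · exact hy (h' y)

end Cfsg.Agent.PermHall
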