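import Cfsg.Agent.PermHall.Basic
import Cfsg.Agent.Arith.BinomialSmallPrime
import Cfsg.Agent.Char.Burnside

/-!
Hall subgroups of symmetric and alternating groups: the shapes and the special degrees.
-/

set_option autoImplicit false
set_option linter.style.haveILetI false

namespace Cfsg.Agent.PermHall

open Equiv Equiv.Perm

variable {n : ℕ} {π : Set ℕ}

/-- Two primes of `π` and one outside are at most `n`. -/
def Nontriv (π : Set ℕ) (n : ℕ) : Prop :=
  (∃ r s, r.Prime ∧ s.Prime ∧ r ≠ s ∧ r ∈ π ∧ s ∈ π ∧ r ≤ n ∧ s ≤ n) ∧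
    ∃ r, r.Prime ∧ r ≤ n ∧ r ∉ π

/-- The primes of `π` up to `n` are those below `n`. -/
def BelowN (π : Set ℕ) (n : ℕ) : Prop := ∀ r, r.Prime → r ≤ n → (r ∈ π ↔ r < n)

/-- The primes of `π` up to `n` are two and three. -/
def P23 (π : Set ℕ) (n : ℕ) : Prop := ∀ r, r.Prime → r ≤ n → (r ∈ π ↔ (r = 2 ∨ r = 3))

/-- The possible shapes of a Hall subgroup. -/
def Shape (π : Set ℕ) (n : ℕ) (H : Subgroup (Perm (Fin n))) : Prop :=
  (n.Prime ∧ BelowN π n ∧ ∃ x, H ≤ setStab {x}) ∨
    (n = 7 ∧ P23 π n ∧ ∃ B : Finset (Fin n), B.card = 3 ∧ H ≤ setStab B) ∨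
    (n = 8 ∧ P23 π n ∧ ∃ B : Finset (Fin n), B.card = 4 ∧ H ≤ partStab B)

theorem five_le (h : Nontriv π n) : 5 ≤ n := by
  obtain ⟨⟨r, s, hr, hs, hrs, hrπ, hsπ, hrn, hsn⟩, t, ht, htn, htπ⟩ := h
  by_contra hlt
  have key : ∀ q, q.Prime → q ≤ n → q = 2 ∨ q = 3 := fun q hq hqn => by
    have := hq.two_le
    have : q ≠ 4 := fun e => absurd (e ▸ hq) (by norm_num)
    omega
  rcases key r hr hrn with rfl | rfl <;> rcases key s hs hsn with rfl | rfl <;>
    rcases key t ht htn with rfl | rfl <;> first | exact hrs rfl | exact htπ hrπ | exact htπ hsπ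

theorem le_of_prime_dvd_setStab {B : Finset (Fin n)} {p : ℕ} (hp : p.Prime)
    (hd : p ∣ Nat.card (setStab B)) : p ≤ B.card ∨ p ≤ n - B.card := by
  rw [card_setStab] at hd
  rcases hp.dvd_mul.1 hd with h | h
  · exact Or.inl (hp.dvd_factorial.1 h)
  · exact Or.inr (hp.dvd_factorial.1 h)

theorem hall_point (hn : n.Prime) (hP : BelowN π n) (x : Fin n) : Cfsg.IsPiHall π (setStab {x}) := by
  refine ⟨fun p hp hd => ?_, fun p hp hpπ hd => ?_⟩
  · have h := le_of_prime_dvd_setStab hp hd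
    rw [Finset.card_singleton] at h
    have := hn.two_le
    exact (hP p hp (by omega)).2 (by omega)
  · rw [index_setStab, Finset.card_singleton, Nat.choose_one_right] at hd
    have := (Nat.prime_dvd_prime_iff_eq hp hn).1 hd
    subst this
    exact lt_irrefl _ ((hP p hp le_rfl).1 hpπ)

theorem hall_seven (hn : n = 7) (hP : P23 π n) {B : Finset (Fin n)} (hB : B.card = 3) :
    Cfsg.IsPiHall π (setStab B) := by
  refine ⟨fun p hp hd => ?_, fun p hp hpπ hd => ?_⟩
  · have h := le_of_prime_dvd_setStab hp hd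
    have := hp.two_le
    have : p ≠ 4 := fun e => absurd (e ▸ hp) (by norm_num)
    exact (hP p hp (by omega)).2 (by omega)
  · rw [index_setStab, hB, hn, show Nat.choose 7 3 = 35 by decide] at hd
    have h35 : p ∣ 5 * 7 := hd
    rcases hp.dvd_mul.1 h35 with h | h <;>
    · have := (Nat.prime_dvd_prime_iff_eq hp (by norm_num)).1 h
      have := (hP p hp (by omega)).1 hpπ
      omega

theorem hall_eight (hn : n = 8) (hP : P23 π n) {B : Finset (Fin n)} (hB : B.card = 4) :
    Cfsg.IsPiHall π (partStab B) := by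
  have hc := card_partStab hB (by omega) (by norm_num)
  refine ⟨fun p hp hd => ?_, fun p hp hpπ hd => ?_⟩
  · rw [hc] at hd
    have h4 : p ≤ 4 := by
      rcases hp.dvd_mul.1 hd with h | h
      · exact (Nat.le_of_dvd two_pos h).trans (by norm_num)
      · rcases hp.dvd_mul.1 h with h | h <;> exact hp.dvd_factorial.1 h
    have := hp.two_le
    have : p ≠ 4 := fun e => absurd (e ▸ hp) (by norm_num)
    exact (hP p hp (by omega)).2 (by omega)
  · have h := (partStab B).card_mul_index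
    rw [hc, Nat.card_perm, Nat.card_fin, show n.factorial = 40320 by rw [hn]; decide,
      show Nat.factorial 4 = 24 by decide] at h
    have hi : (partStab B).index = 5 * 7 := by omega
    rw [hi] at hd
    rcases hp.dvd_mul.1 hd with h | h <;>
    · have := (Nat.prime_dvd_prime_iff_eq hp (by norm_num)).1 h
      have := (hP p hp (by omega)).1 hpπ
      omega

/-- The three-cycle `u ↦ v ↦ w ↦ u`. -/
def cyc (u v w : Fin n) : Perm (Fin n) := swap u v * swap v w

theorem cyc_fix {u v w x : Fin n} (hu : x ≠ u) (hv : x ≠ v) (hw : x ≠ w) : cyc u v w x = x := by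
  rw [cyc, Perm.mul_apply, swap_apply_of_ne_of_ne hv hw, swap_apply_of_ne_of_ne hu hv]

theorem cyc_first {u v w : Fin n} (huv : u ≠ v) (huw : u ≠ w) : cyc u v w u = v := by
  rw [cyc, Perm.mul_apply, swap_apply_of_ne_of_ne huv huw, swap_apply_left]

theorem cyc_second {u v w : Fin n} (huw : u ≠ w) (hvw : v ≠ w) : cyc u v w v = w := by
  rw [cyc, Perm.mul_apply, swap_apply_left, swap_apply_of_ne_of_ne huw.symm hvw.symm]

theorem cyc_third {u v w : Fin n} : cyc u v w w = u := by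
  rw [cyc, Perm.mul_apply, swap_apply_right, swap_apply_right]

theorem cyc_even {u v w : Fin n} (huv : u ≠ v) (hvw : v ≠ w) : Perm.sign (cyc u v w) = 1 := by
  rw [cyc, map_mul, sign_swap huv, sign_swap hvw]; rfl

theorem cyc_mem_setStab {u v w : Fin n} {B : Finset (Fin n)} (hu : u ∈ B ↔ v ∈ B)
    (hw : v ∈ B ↔ w ∈ B) : cyc u v w ∈ setStab B := by
  refine inter_mem fun x hx => ?_
  rw [cyc, Perm.mul_apply]
  rcases eq_or_ne x v with rfl | hxv
  · rw [swap_apply_left, Equiv.swap_apply_def]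
    split_ifs with h1 h2
    · exact hx
    · exact hu.2 hx
    · exact hw.1 hx
  rcases eq_or_ne x w with rfl | hxw
  · rw [swap_apply_right, swap_apply_right]
    exact hu.2 (hw.2 hx)
  rw [swap_apply_of_ne_of_ne hxv hxw, Equiv.swap_apply_def]
  split_ifs with h1
  · exact hu.1 (h1 ▸ hx)
  · exact hx

theorem cyc_mem_alt {u v w : Fin n} (huv : u ≠ v) (hvw : v ≠ w) :
    cyc u v w ∈ alternatingGroup (Fin n) := Perm.mem_alternatingGroup.2 (cyc_even huv hvw)

/-! ### One point deleted -/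

/-- A set pulled back along a labelling of a subset. -/
def up {m : ℕ} {S : Finset (Fin n)} (e : {x // x ∈ S} ≃ Fin m) (C : Finset (Fin m)) : Finset (Fin n) :=
  C.map (e.symm.toEmbedding.trans (Function.Embedding.subtype _))

theorem mem_up {m : ℕ} {S : Finset (Fin n)} {e : {x // x ∈ S} ≃ Fin m} {C : Finset (Fin m)}
    {x : Fin n} (hx : x ∈ S) : x ∈ up e C ↔ e ⟨x, hx⟩ ∈ C := by
  constructor
  · intro h
    obtain ⟨i, hi, he⟩ := Finset.mem_map.1 h
    have : e.symm i = ⟨x, hx⟩ := Subtype.ext he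
    rw [← this, Equiv.apply_symm_apply]
    exact hi
  · intro h
    exact Finset.mem_map.2 ⟨_, h, by simp⟩

theorem up_subset {m : ℕ} {S : Finset (Fin n)} {e : {x // x ∈ S} ≃ Fin m} {C : Finset (Fin m)}
    {x : Fin n} (hx : x ∈ up e C) : x ∈ S := by
  obtain ⟨i, -, he⟩ := Finset.mem_map.1 hx
  rw [← he]
  exact (e.symm i).2

theorem card_up {m : ℕ} {S : Finset (Fin n)} (e : {x // x ∈ S} ≃ Fin m) (C : Finset (Fin m)) :
    (up e C).card = C.card := Finset.card_map _

theorem exists_equiv (S : Finset (Fin n)) {m : ℕ} (h : S.card = m) :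
    Nonempty ({x // x ∈ S} ≃ Fin m) :=
  ⟨Fintype.equivFinOfCardEq (by rw [Fintype.card_coe, h])⟩

theorem proj_mem_setStab {m : ℕ} {S : Finset (Fin n)} (e : {x // x ∈ S} ≃ Fin m) {C : Finset (Fin m)}
    {σ : Perm (Fin n)} (hσ : σ ∈ setStab S) :
    proj S e ⟨σ, hσ⟩ ∈ setStab C ↔ ∀ x ∈ S, σ x ∈ up e C ↔ x ∈ up e C := by
  constructor
  · intro h x hx
    have := h (e ⟨x, hx⟩)
    rw [proj_apply e ⟨σ, hσ⟩ hx] at this
    rw [mem_up hx, mem_up ((hσ x).2 hx)]
    exact this
  · intro h i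
    obtain ⟨⟨x, hx⟩, rfl⟩ := e.surjective i
    rw [proj_apply e ⟨σ, hσ⟩ hx, ← mem_up, ← mem_up hx]
    exact h x hx

theorem proj_sides {m : ℕ} {S : Finset (Fin n)} (e : {x // x ∈ S} ≃ Fin m) {C : Finset (Fin m)}
    {σ : Perm (Fin n)} (hσ : σ ∈ setStab S) (h : proj S e ⟨σ, hσ⟩ ∈ partStab C) :
    (∀ x ∈ S, σ x ∈ up e C ↔ x ∈ up e C) ∨ (∀ x ∈ S, σ x ∈ up e C ↔ x ∉ up e C) := by
  rcases (h : Sides C _) with h | h
  · exact Or.inl ((proj_mem_setStab e hσ).1 h)
  · refine Or.inr fun x hx => ?_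
    have := h (e ⟨x, hx⟩)
    rw [proj_apply e ⟨σ, hσ⟩ hx] at this
    rw [mem_up hx, mem_up ((hσ x).2 hx)]
    exact this

theorem setStab_compl_singleton (z : Fin n) : setStab ({z}ᶜ : Finset (Fin n)) = setStab {z} :=
  setStab_compl _

theorem proj_injective_point {m : ℕ} (z : Fin n) (e : {x // x ∈ ({z}ᶜ : Finset (Fin n))} ≃ Fin m) :
    Function.Injective (proj ({z}ᶜ : Finset (Fin n)) e) := by
  intro a b hab
  refine Subtype.ext (Equiv.ext fun x => ?_)
  by_cases hx : x ∈ ({z}ᶜ : Finset (Fin n))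
  · have := DFunLike.congr_fun hab (e ⟨x, hx⟩)
    rw [proj_apply e a hx, proj_apply e b hx] at this
    exact congrArg Subtype.val (e.injective this)
  · have hxz : x = z := by simpa using hx
    subst hxz
    have ha : a.1 ∈ setStab {x} := (setStab_compl_singleton x).le a.2
    have hb : b.1 ∈ setStab {x} := (setStab_compl_singleton x).le b.2
    rw [mem_setStab_singleton.1 ha, mem_setStab_singleton.1 hb]

/-- Membership in `H` is detected after deleting a fixed point. -/
theorem mem_of_img {G H : Subgroup (Perm (Fin n))} {m : ℕ} (z : Fin n)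
    (e : {x // x ∈ ({z}ᶜ : Finset (Fin n))} ≃ Fin m) (hAG : alternatingGroup (Fin n) ≤ G)
    (hI : Cfsg.IsPiHallOf π (img _ e H) (img _ e G)) {T : Subgroup (Perm (Fin m))}
    (hT : Cfsg.IsPiHall π T) (hle : img _ e H ≤ T) {c : Perm (Fin n)} (hc : c ∈ G)
    (hcz : c ∈ setStab ({z}ᶜ : Finset (Fin n))) (hcT : proj _ e ⟨c, hcz⟩ ∈ T) : c ∈ H := by
  have heq := hallOf_eq hI (hall_inter (alt_le_img _ e hAG) hT) (le_inf hle hI.1)
  have h : proj _ e ⟨c, hcz⟩ ∈ img _ e H := heq ▸ ⟨hcT, mem_img e hcz hc⟩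
  obtain ⟨w, hw, he⟩ := h
  have hwe : w = ⟨c, hcz⟩ := proj_injective_point z e he
  rw [hwe] at hw
  exact hw

/-! ### Degree eight -/

theorem shape_eight (hn : n = 8) (hP : P23 π 7) {G H : Subgroup (Perm (Fin n))}
    (hAG : alternatingGroup (Fin n) ≤ G) (hH : Cfsg.IsPiHallOf π H G)
    (htr : ∀ x y, ∃ h ∈ H, h x = y)
    (hstep : ∀ (z : Fin n) (e : {x // x ∈ ({z}ᶜ : Finset (Fin n))} ≃ Fin 7),
      ∃ C : Finset (Fin 7), C.card = 3 ∧ img _ e H ≤ setStab C) :
    ∃ B : Finset (Fin n), B.card = 4 ∧ H ≤ partStab B := by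
  classical
  have hdata : ∀ z : Fin n, ∃ B : Finset (Fin n), B.card = 3 ∧ z ∉ B ∧
      (∀ h ∈ H, h z = z → h ∈ setStab B) ∧
      ∀ c ∈ alternatingGroup (Fin n), c z = z → c ∈ setStab B → c ∈ H := by
    intro z
    obtain ⟨e⟩ := exists_equiv ({z}ᶜ : Finset (Fin n)) (m := 7)
      (by rw [Finset.card_compl, Fintype.card_fin, Finset.card_singleton]; omega)
    obtain ⟨C, hC, hle⟩ := hstep z e
    have hzB : z ∉ up e C := fun h => by simpa using up_subset h
    refine ⟨up e C, (card_up e C).trans hC, hzB, fun h hh hz => inter_mem fun x hx => ?_,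
      fun c hc hz hcB => ?_⟩
    · have hm : h ∈ setStab ({z}ᶜ : Finset (Fin n)) := by
        rw [setStab_compl_singleton]; exact mem_setStab_singleton.2 hz
      exact ((proj_mem_setStab e hm).1 (hle (mem_img e hm hh)) x (up_subset hx)).2 hx
    · have hm : c ∈ setStab ({z}ᶜ : Finset (Fin n)) := by
        rw [setStab_compl_singleton]; exact mem_setStab_singleton.2 hz
      have hI := hall_img _ e (setStab_compl_singleton z ▸ hall_fix hH htr z)
      exact mem_of_img z e hAG hI (hall_seven rfl hP hC) hle (hAG hc) hm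
        ((proj_mem_setStab e hm).2 fun x _ => hcB x)
  choose B hB3 hBz hBinv hBfull using hdata
  -- the four points outside `insert z (B z)`
  have hR : ∀ z, ∀ u v : Fin n, u ∉ insert z (B z) → v ∉ insert z (B z) → u ≠ v →
      ∃ c ∈ H, c u = v ∧ ∀ t, t ∈ insert z (B z) → c t = t := by
    intro z u v hu hv huv
    obtain ⟨w, hw⟩ : ∃ w, w ∉ insert u (insert v (insert z (B z))) := by
      by_contra hc
      push Not at hc
      have := Finset.card_le_card (fun x _ => hc x : (Finset.univ : Finset (Fin n)) ⊆ _)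
      have := Finset.card_insert_le u (insert v (insert z (B z)))
      have := Finset.card_insert_le v (insert z (B z))
      have := Finset.card_insert_le z (B z)
      rw [Finset.card_univ, Fintype.card_fin] at *
      have := hB3 z
      omega
    simp only [Finset.mem_insert, not_or] at hu hv hw
    refine ⟨cyc u v w, hBfull z _ (cyc_mem_alt huv (Ne.symm hw.2.1)) (cyc_fix (Ne.symm hu.1)
        (Ne.symm hv.1) (Ne.symm hw.2.2.1)) (cyc_mem_setStab (iff_of_false hu.2 hv.2)
        (iff_of_false hv.2 hw.2.2.2)), cyc_first huv (Ne.symm hw.1), fun t ht => ?_⟩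
    rcases Finset.mem_insert.1 ht with rfl | ht'
    · exact cyc_fix (Ne.symm hu.1) (Ne.symm hv.1) (Ne.symm hw.2.2.1)
    · exact cyc_fix (fun e => hu.2 (e ▸ ht')) (fun e => hv.2 (e ▸ ht')) (fun e => hw.2.2.2 (e ▸ ht'))
  have hU : ∀ z (S : Finset (Fin n)), S.card = 3 →
      (∀ h ∈ H, (∀ t, t ∈ insert z (B z) → h t = t) → ∀ x ∈ S, h x ∈ S) →
      S ⊆ insert z (B z) := by
    intro z S hS hinv x hx
    by_contra hxo
    have hsub : (insert z (B z))ᶜ ⊆ S := by
      intro v hv
      rw [Finset.mem_compl] at hv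
      rcases eq_or_ne x v with rfl | hne
      · exact hx
      obtain ⟨c, hc, hcx, hcfix⟩ := hR z x v hxo hv hne
      exact hcx ▸ hinv c hc hcfix x hx
    have := Finset.card_le_card hsub
    rw [Finset.card_compl, Finset.card_insert_of_notMem (hBz z), hB3, Fintype.card_fin, hS] at this
    omega
  let Cf : Fin n → Finset (Fin n) := fun z => insert z (B z)
  have hC4 : ∀ z, (Cf z).card = 4 := fun z => by
    rw [Finset.card_insert_of_notMem (hBz z), hB3]
  have hCsame : ∀ z, ∀ y ∈ Cf z, Cf y = Cf z := by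
    intro z y hy
    refine Finset.eq_of_subset_of_card_le (fun t ht => ?_) (by rw [hC4, hC4])
    rcases Finset.mem_insert.1 ht with rfl | ht'
    · exact hy
    · exact hU z (B y) (hB3 y) (fun h hh hfix => fun x hx => (hBinv y h hh (hfix y hy) x).2 hx) ht'
  have hCimg : ∀ h ∈ H, ∀ z, ∀ t ∈ Cf z, h t ∈ Cf (h z) := by
    intro h hh z t ht
    rcases Finset.mem_insert.1 ht with rfl | ht'
    · exact Finset.mem_insert_self _ _
    refine hU (h z) ((B z).map h.toEmbedding) (by rw [Finset.card_map, hB3]) (fun g hg hfix x hx => ?_)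
      (Finset.mem_map_of_mem _ ht')
    obtain ⟨s, hs, rfl⟩ := Finset.mem_map.1 hx
    have h1 := (hBinv z (h⁻¹ * g * h) (H.mul_mem (H.mul_mem (H.inv_mem hh) hg) hh) (by
      rw [Perm.mul_apply, Perm.mul_apply, hfix _ (Finset.mem_insert_self _ _), Perm.coe_inv,
        Equiv.symm_apply_apply]) s).2 hs
    refine Finset.mem_map.2 ⟨_, h1, ?_⟩
    simp
  have hne : 0 < n := by omega
  let z0 : Fin n := ⟨0, hne⟩
  refine ⟨Cf z0, hC4 z0, fun h hh => ?_⟩
  by_cases hin : h z0 ∈ Cf z0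
  · refine Or.inl (inter_mem fun x hx => ?_)
    have := hCimg h hh z0 x hx
    rwa [hCsame z0 _ hin] at this
  · have hcompl : Cf (h z0) = (Cf z0)ᶜ := by
      refine Finset.eq_of_subset_of_card_le (fun t ht => Finset.mem_compl.2 fun ht0 => hin ?_)
        (by rw [Finset.card_compl, Fintype.card_fin, hC4, hC4]; omega)
      rw [← hCsame z0 t ht0, hCsame (h z0) t ht]
      exact Finset.mem_insert_self _ _
    have himg : (Cf z0).map h.toEmbedding = (Cf z0)ᶜ := by
      refine Finset.eq_of_subset_of_card_le (fun t ht => ?_) (by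
        rw [Finset.card_map, Finset.card_compl, Fintype.card_fin, hC4]; omega)
      obtain ⟨s, hs, rfl⟩ := Finset.mem_map.1 ht
      exact hcompl ▸ hCimg h hh z0 s hs
    refine Or.inr fun x => ?_
    have h2 : h x ∈ (Cf z0)ᶜ ↔ x ∈ Cf z0 := by
      rw [← himg]
      exact Finset.mem_map' _
    rw [← h2, Finset.mem_compl, not_not]

/-! ### Degree nine -/

theorem no_nine (hn : n = 9) (hP : P23 π 8) {G H : Subgroup (Perm (Fin n))}
    (hAG : alternatingGroup (Fin n) ≤ G) (hH : Cfsg.IsPiHallOf π H G)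
    (htr : ∀ x y, ∃ h ∈ H, h x = y)
    (hstep : ∀ (z : Fin n) (e : {x // x ∈ ({z}ᶜ : Finset (Fin n))} ≃ Fin 8),
      ∃ C : Finset (Fin 8), C.card = 4 ∧ img _ e H ≤ partStab C) : False := by
  classical
  have hdata : ∀ z : Fin n, ∃ B : Finset (Fin n), B.card = 4 ∧ z ∉ B ∧
      (∀ h ∈ H, h z = z → (∀ x, x ≠ z → (h x ∈ B ↔ x ∈ B)) ∨ ∀ x, x ≠ z → (h x ∈ B ↔ x ∉ B)) ∧
      ∀ c ∈ alternatingGroup (Fin n), c z = z → c ∈ setStab B → c ∈ H := by
    intro z
    obtain ⟨e⟩ := exists_equiv ({z}ᶜ : Finset (Fin n)) (m := 8)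
      (by rw [Finset.card_compl, Fintype.card_fin, Finset.card_singleton]; omega)
    obtain ⟨C, hC, hle⟩ := hstep z e
    have hzB : z ∉ up e C := fun h => by simpa using up_subset h
    refine ⟨up e C, (card_up e C).trans hC, hzB, fun h hh hz => ?_, fun c hc hz hcB => ?_⟩
    · have hm : h ∈ setStab ({z}ᶜ : Finset (Fin n)) := by
        rw [setStab_compl_singleton]; exact mem_setStab_singleton.2 hz
      rcases proj_sides e hm (hle (mem_img e hm hh)) with h' | h'
      · exact Or.inl fun x hx => h' x (by simpa using hx)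
      · exact Or.inr fun x hx => h' x (by simpa using hx)
    · have hm : c ∈ setStab ({z}ᶜ : Finset (Fin n)) := by
        rw [setStab_compl_singleton]; exact mem_setStab_singleton.2 hz
      have hI := hall_img _ e (setStab_compl_singleton z ▸ hall_fix hH htr z)
      exact mem_of_img z e hAG hI (hall_eight rfl hP hC) hle (hAG hc) hm
        (Or.inl ((proj_mem_setStab e hm).2 fun x _ => hcB x))
  choose B hB4 hBz hBinv hBfull using hdata
  let x : Fin n := ⟨0, by omega⟩
  obtain ⟨y, hy⟩ := Finset.card_pos.1 (show 0 < (B x).card by rw [hB4]; norm_num)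
  set R := (insert x (B x))ᶜ with hRdef
  have hR4 : R.card = 4 := by
    rw [hRdef, Finset.card_compl, Finset.card_insert_of_notMem (hBz x), hB4, Fintype.card_fin]; omega
  have hxy : y ≠ x := fun e => hBz x (e ▸ hy)
  have hyR : y ∉ R := by simp [hRdef, hy]
  have hconn : ∀ u ∈ R, ∀ v ∈ R, (u ∈ B y ↔ v ∈ B y) := by
    intro u hu v hv
    rcases eq_or_ne u v with rfl | huv
    · exact Iff.rfl
    obtain ⟨w, hwR, hw⟩ : ∃ w ∈ R, w ∉ ({u, v} : Finset (Fin n)) := by
      by_contra hc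
      push Not at hc
      have := (Finset.card_le_card hc).trans Finset.card_le_two
      omega
    simp only [Finset.mem_insert, Finset.mem_singleton, not_or] at hw
    simp only [hRdef, Finset.mem_compl, Finset.mem_insert, not_or] at hu hv hwR
    have hy' : cyc u v w y = y :=
      cyc_fix (fun e => hu.2 (e ▸ hy)) (fun e => hv.2 (e ▸ hy)) (fun e => hwR.2 (e ▸ hy))
    have hcH : cyc u v w ∈ H := hBfull x _ (cyc_mem_alt huv (Ne.symm hw.2))
      (cyc_fix (Ne.symm hu.1) (Ne.symm hv.1) (Ne.symm hwR.1))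
      (cyc_mem_setStab (iff_of_false hu.2 hv.2) (iff_of_false hv.2 hwR.2))
    have huy : u ≠ y := fun e => hu.2 (e ▸ hy)
    have hvy : v ≠ y := fun e => hv.2 (e ▸ hy)
    have hwy : w ≠ y := fun e => hwR.2 (e ▸ hy)
    rcases hBinv y _ hcH hy' with h | h
    · rw [← h u huy, cyc_first huv (Ne.symm hw.1)]
    · exfalso
      have h1 := h u huy
      have h2 := h v hvy
      have h3 := h w hwy
      rw [cyc_first huv (Ne.symm hw.1)] at h1
      rw [cyc_second (Ne.symm hw.1) (Ne.symm hw.2)] at h2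
      rw [cyc_third] at h3
      tauto
  -- the other side at `y` is `insert x (B x \ {y})`
  obtain ⟨b1, b2, b3, hb12, hb13, hb23, hb⟩ := Finset.card_eq_three.1
    (show ((B x).erase y).card = 3 by rw [Finset.card_erase_of_mem hy, hB4])
  have hb' : ∀ t ∈ ({b1, b2, b3} : Finset (Fin n)), t ∈ B x ∧ t ≠ y := fun t ht => by
    rw [← hb, Finset.mem_erase] at ht
    exact ⟨ht.2, ht.1⟩
  obtain ⟨h1, h1y⟩ := hb' b1 (by simp)
  obtain ⟨h2, h2y⟩ := hb' b2 (by simp)
  obtain ⟨h3, h3y⟩ := hb' b3 (by simp)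
  have hside : ∀ t, t ∉ R → t ≠ y → ∀ s, s ∉ R → s ≠ y → (t ∈ B y ↔ s ∈ B y) := by
    intro t ht hty s hs hsy
    obtain ⟨r, hr⟩ := Finset.card_pos.1 (show 0 < R.card by omega)
    by_cases hrB : r ∈ B y
    · have hsub : R ⊆ B y := fun v hv => (hconn r hr v hv).1 hrB
      have heq := Finset.eq_of_subset_of_card_le hsub (by rw [hB4, hR4])
      rw [← heq]
      exact iff_of_false ht hs
    · have hsub : B y ⊆ (insert y R)ᶜ := fun v hv => by
        rw [Finset.mem_compl, Finset.mem_insert, not_or]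
        exact ⟨fun e => hBz y (e ▸ hv), fun hvR => hrB ((hconn r hr v hvR).2 hv)⟩
      have heq := Finset.eq_of_subset_of_card_le hsub
        (by rw [Finset.card_compl, Finset.card_insert_of_notMem hyR, hR4, hB4, Fintype.card_fin]; omega)
      rw [heq]
      refine iff_of_true ?_ ?_ <;> simp only [Finset.mem_compl, Finset.mem_insert, not_or]
      exacts [⟨hty, ht⟩, ⟨hsy, hs⟩]
  have hR' : ∀ t, t ∈ B x → t ∉ R := fun t ht => by simp [hRdef, ht]
  have hxR : x ∉ R := by simp [hRdef]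
  have hσ : cyc x b1 b2 ∈ H := hBfull y _
    (cyc_mem_alt (fun e => hBz x (e ▸ h1)) hb12)
    (cyc_fix hxy (Ne.symm h1y) (Ne.symm h2y))
    (cyc_mem_setStab (hside x hxR hxy.symm b1 (hR' _ h1) h1y)
      (hside b1 (hR' _ h1) h1y b2 (hR' _ h2) h2y))
  have hτ : cyc y b1 b3 ∈ H := hBfull x _
    (cyc_mem_alt (Ne.symm h1y) hb13)
    (cyc_fix hxy.symm (fun e => hBz x (e ▸ h1)) (fun e => hBz x (e ▸ h3)))
    (cyc_mem_setStab (iff_of_true hy h1) (iff_of_true h1 h3))
  set g := cyc x b1 b2 * cyc y b1 b3 with hg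
  have hx1 : x ≠ b1 := fun e => hBz x (e ▸ h1)
  have hx2 : x ≠ b2 := fun e => hBz x (e ▸ h2)
  have hx3 : x ≠ b3 := fun e => hBz x (e ▸ h3)
  have gy : g y = b2 := by
    rw [hg, Perm.mul_apply, cyc_first (Ne.symm h1y) (Ne.symm h3y), cyc_second hx2 hb12]
  have g2 : g b2 = x := by
    rw [hg, Perm.mul_apply, cyc_fix h2y hb12.symm hb23, cyc_third]
  have gx : g x = b1 := by
    rw [hg, Perm.mul_apply, cyc_fix hxy.symm hx1 hx3, cyc_first hx1 hx2]
  have g1 : g b1 = b3 := by
    rw [hg, Perm.mul_apply, cyc_second (Ne.symm h3y) hb13,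
      cyc_fix hx3.symm hb13.symm hb23.symm]
  have g3 : g b3 = y := by
    rw [hg, Perm.mul_apply, cyc_third, cyc_fix hxy (Ne.symm h1y) (Ne.symm h2y)]
  have h5 : g ^ 5 = 1 := by
    refine Equiv.ext fun t => ?_
    simp only [pow_succ, pow_zero, one_mul, Perm.mul_apply, Perm.one_apply]
    rcases eq_or_ne t y with rfl | a1
    · rw [gy, g2, gx, g1, g3]
    rcases eq_or_ne t b2 with rfl | a2
    · rw [g2, gx, g1, g3, gy]
    rcases eq_or_ne t x with rfl | a3
    · rw [gx, g1, g3, gy, g2]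
    rcases eq_or_ne t b1 with rfl | a4
    · rw [g1, g3, gy, g2, gx]
    rcases eq_or_ne t b3 with rfl | a5
    · rw [g3, gy, g2, gx, g1]
    have gt : g t = t := by rw [hg, Perm.mul_apply, cyc_fix a1 a4 a5, cyc_fix a3 a4 a2]
    rw [gt, gt, gt, gt, gt]
  have hg1 : g ≠ 1 := fun h => hx1 (by rw [h, Perm.one_apply] at gx; exact gx)
  haveI : Fact (Nat.Prime 5) := ⟨by norm_num⟩
  have hord : orderOf g = 5 := orderOf_eq_prime h5 hg1
  have hd : 5 ∣ Nat.card H := hord ▸ Subgroup.orderOf_dvd_natCard H (H.mul_mem hσ hτ)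
  have := (hP 5 (by norm_num) (by norm_num)).1 (hH.2.1 5 (by norm_num) hd)
  omega

end Cfsg.Agent.PermHall
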